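/-
S4323 project: `E_{q²}` acting coprimely with abelian fixed points ⇒ solvable.
Internal setting: `G A : Subgroup Γ`.  All "lines" are handled through elements of `A`.
-/
import Mathlib
import Cfsg.Agent.Lib.Coprime.Generation2

set_option autoImplicit false

namespace Cfsg.Agent.Lib.FpfPP

open Subgroup Cfsg.Agent.Lib.Coprime.Action
open scoped Pointwise

universe u

variable {Γ : Type u} [Group Γ]

/-- Fixed points of `a` in `L`. -/
abbrev Fx (L : Subgroup Γ) (a : Γ) : Subgroup Γ := L ⊓ centralizer ({a} : Set Γ)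

/-- `L` is `A`-invariant. -/
abbrev Inv (A L : Subgroup Γ) : Prop := A ≤ normalizer (L : Set Γ)

/-- The elements of `A` off the line of `b`. -/
def Off (A : Subgroup Γ) (b : Γ) : Set Γ := {a | a ∈ A ∧ a ∉ zpowers b}

/-- The nonidentity elements of `A`. -/
def Sharp (A : Subgroup Γ) : Set Γ := {a | a ∈ A ∧ a ≠ 1}

/-- The hypotheses, with no condition on `C_G(A)`. -/
structure BaseNT (G A : Subgroup Γ) (q : ℕ) : Prop where
  hq : q.Prime
  cardA : Nat.card A = q ^ 2
  ncA : ¬ IsCyclic A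
  inv : Inv A G
  cop : ¬ q ∣ Nat.card G
  abel : ∀ a ∈ A, a ≠ 1 → ∀ x ∈ Fx G a, ∀ y ∈ Fx G a, x * y = y * x

/-- The hypotheses together with `C_G(A) = 1`. -/
structure Base (G A : Subgroup Γ) (q : ℕ) : Prop extends BaseNT G A q where
  triv : G ⊓ centralizer (A : Set Γ) = ⊥

/-- A minimal counterexample. -/
structure MC (G A : Subgroup Γ) (q : ℕ) : Prop extends Base G A q where
  /-- no proper nontrivial invariant normal subgroup -/
  simple : ∀ N : Subgroup Γ, N ≤ G → G ≤ normalizer (N : Set Γ) → Inv A N → N = ⊥ ∨ N = G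
  /-- proper invariant subgroups are solvable -/
  solv : ∀ L : Subgroup Γ, L ≤ G → L ≠ G → Inv A L → Group.IsSolvable L
  nons : ¬ Group.IsSolvable G

section Inv

variable {A L M : Subgroup Γ}

theorem conj_mem_of_inv (hL : Inv A L) {a x : Γ} (ha : a ∈ A) (hx : x ∈ L) : a * x * a⁻¹ ∈ L :=
  (mem_normalizer_iff.mp (hL ha) x).mp hx

theorem inv_of_conj [Finite Γ] (h : ∀ a ∈ A, ∀ x ∈ L, a * x * a⁻¹ ∈ L) : Inv A L := by
  intro a ha
  rw [mem_normalizer_iff]
  intro x
  refine ⟨h a ha x, fun hx => ?_⟩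
  have := h a⁻¹ (A.inv_mem ha) _ hx
  have e : a⁻¹ * (a * x * a⁻¹) * a⁻¹⁻¹ = x := by group
  rwa [e] at this

theorem Inv.inf (hL : Inv A L) (hM : Inv A M) : Inv A (L ⊓ M) := by
  intro a ha
  rw [mem_normalizer_iff]
  intro x
  have h1 := mem_normalizer_iff.mp (hL ha) x
  have h2 := mem_normalizer_iff.mp (hM ha) x
  simp only [mem_inf, h1, h2]

theorem Inv.sup (hL : Inv A L) (hM : Inv A M) : Inv A (L ⊔ M) := by
  intro a ha
  apply mem_normalizer_of_conj_smul_eq
  rw [Subgroup.smul_sup, conj_smul_self_of_mem_normalizer (hL ha),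
    conj_smul_self_of_mem_normalizer (hM ha)]

theorem Inv.comm (hL : Inv A L) (hM : Inv A M) : Inv A ⁅L, M⁆ :=
  le_normalizer_commutator_of_le hL hM

theorem Inv.centralizer (hL : Inv A L) : Inv A (centralizer (L : Set Γ)) := by
  intro a ha
  rw [mem_normalizer_iff]
  intro x
  have key : ∀ b ∈ A, ∀ y ∈ Subgroup.centralizer (L : Set Γ), b * y * b⁻¹ ∈ Subgroup.centralizer (L : Set Γ) := by
    intro b hb y hy
    rw [mem_centralizer_iff] at hy ⊢
    intro l hl
    have h1 := hy (b⁻¹ * l * b) (by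
      have := conj_mem_of_inv hL (A.inv_mem hb) hl
      simpa using this)
    calc l * (b * y * b⁻¹) = b * ((b⁻¹ * l * b) * y) * b⁻¹ := by group
      _ = b * (y * (b⁻¹ * l * b)) * b⁻¹ := by rw [h1]
      _ = b * y * b⁻¹ * l := by group
  refine ⟨key a ha x, fun hx => ?_⟩
  have := key a⁻¹ (A.inv_mem ha) _ hx
  have e : a⁻¹ * (a * x * a⁻¹) * a⁻¹⁻¹ = x := by group
  rwa [e] at this

end Inv

end Cfsg.Agent.Lib.FpfPP
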