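/- Basic consequences of the hypotheses. -/
import Cfsg.Agent.Lib.FpfPP.Defs

set_option autoImplicit false

namespace Cfsg.Agent.Lib.FpfPP

open Subgroup

universe u

variable {Γ : Type u} [Group Γ] [Finite Γ] {G A : Subgroup Γ} {q : ℕ}

namespace BaseNT

variable (h : BaseNT G A q)
include h

theorem commA {x y : Γ} (hx : x ∈ A) (hy : y ∈ A) : x * y = y * x := by
  haveI : Fact q.Prime := ⟨h.hq⟩
  have hP : IsPGroup q A := IsPGroup.of_card h.cardA
  have h1 := IsPGroup.commutative_of_card_eq_prime_sq h.cardA ⟨x, hx⟩ ⟨y, hy⟩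
  exact congrArg Subtype.val h1

theorem pow_q {a : Γ} (ha : a ∈ A) : a ^ q = 1 := by
  haveI : Fact q.Prime := ⟨h.hq⟩
  have h1 : orderOf (⟨a, ha⟩ : A) ∣ q ^ 2 := by
    rw [← h.cardA]
    exact orderOf_dvd_natCard _
  obtain ⟨k, hk, hk2⟩ := (Nat.dvd_prime_pow h.hq).mp h1
  have hk3 : orderOf (⟨a, ha⟩ : A) ∣ q := by
    interval_cases k
    · rw [hk2, pow_zero]
      exact one_dvd _
    · rw [hk2, pow_one]
    · exfalso
      apply h.ncA
      exact isCyclic_of_orderOf_eq_card _ (by rw [hk2, h.cardA])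
  have h2 : (⟨a, ha⟩ : A) ^ q = 1 := orderOf_dvd_iff_pow_eq_one.mp hk3
  exact congrArg Subtype.val h2

theorem orderOf_eq {a : Γ} (ha : a ∈ A) (h1 : a ≠ 1) : orderOf a = q := by
  haveI : Fact q.Prime := ⟨h.hq⟩
  exact orderOf_eq_prime (h.pow_q ha) h1

theorem sup_zpowers {a b : Γ} (ha : a ∈ A) (ha1 : a ≠ 1) (hb : b ∈ A) (hb' : b ∉ zpowers a) :
    zpowers a ⊔ zpowers b = A := by
  haveI : Fact q.Prime := ⟨h.hq⟩
  set S := zpowers a ⊔ zpowers b with hS
  have hSA : S ≤ A := sup_le (zpowers_le.mpr ha) (zpowers_le.mpr hb)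
  have h1 : Nat.card S ∣ q ^ 2 := by
    rw [← h.cardA]
    exact Subgroup.card_dvd_of_le hSA
  have h2 : Nat.card (zpowers a) = q := by
    rw [Nat.card_zpowers, h.orderOf_eq ha ha1]
  have h3 : q ∣ Nat.card S := by
    rw [← h2]
    exact Subgroup.card_dvd_of_le le_sup_left
  obtain ⟨k, hk, hk2⟩ := (Nat.dvd_prime_pow h.hq).mp h1
  have hk3 : k = 2 := by
    interval_cases k
    · rw [hk2, pow_zero] at h3
      exact absurd (Nat.dvd_one.mp h3) h.hq.ne_one
    · exfalso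
      rw [pow_one] at hk2
      have h4 : zpowers a = S := by
        apply Subgroup.eq_of_le_of_card_ge le_sup_left
        rw [h2, hk2]
      apply hb'
      rw [h4]
      exact mem_sup_right (mem_zpowers b)
    · rfl
  apply Subgroup.eq_of_le_of_card_ge hSA
  rw [h.cardA, hk2, hk3]

/-- A third line. -/
theorem exists_off {a b : Γ} (ha : a ∈ A) (hb : b ∈ A) : ∃ c ∈ A, c ∉ zpowers a ∧ c ∉ zpowers b := by
  have hne : ∀ u ∈ A, ∃ c ∈ A, c ∉ zpowers u := by
    intro u hu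
    by_contra hcon
    push Not at hcon
    exact h.ncA (isCyclic_of_injective (Subgroup.inclusion hcon) (Subgroup.inclusion_injective hcon))
  obtain ⟨c₁, hc₁, hc₁a⟩ := hne a ha
  by_cases hb1 : c₁ ∈ zpowers b
  · obtain ⟨c₂, hc₂, hc₂b⟩ := hne b hb
    by_cases ha2 : c₂ ∈ zpowers a
    · refine ⟨c₁ * c₂, A.mul_mem hc₁ hc₂, ?_, ?_⟩
      · intro h1
        apply hc₁a
        have := (zpowers a).mul_mem h1 ((zpowers a).inv_mem ha2)
        simpa using this
      · intro h1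
        apply hc₂b
        have := (zpowers b).mul_mem ((zpowers b).inv_mem hb1) h1
        simpa using this
    · exact ⟨c₂, hc₂, ha2, hc₂b⟩
  · exact ⟨c₁, hc₁, hc₁a, hb1⟩

theorem copA : (Nat.card A).Coprime (Nat.card G) := by
  rw [h.cardA]
  exact Nat.Coprime.pow_left 2 ((Nat.Prime.coprime_iff_not_dvd h.hq).2 h.cop)

theorem copA_le {L : Subgroup Γ} (hL : L ≤ G) : (Nat.card A).Coprime (Nat.card L) :=
  Nat.Coprime.coprime_dvd_right (Subgroup.card_dvd_of_le hL) h.copA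

theorem copZ {a : Γ} (ha : a ∈ A) : (Nat.card (zpowers a)).Coprime (Nat.card G) :=
  Nat.Coprime.coprime_dvd_left (Subgroup.card_dvd_of_le (zpowers_le.mpr ha)) h.copA

theorem fx_congr (L : Subgroup Γ) {a b : Γ} (ha : a ∈ A) (ha1 : a ≠ 1) (hb : b ∈ zpowers a) (hb1 : b ≠ 1) :
    Fx L b = Fx L a := by
  haveI : Fact q.Prime := ⟨h.hq⟩
  have hbA : b ∈ A := (zpowers_le.mpr ha) hb
  have hz : zpowers b = zpowers a := by
    apply Subgroup.eq_of_le_of_card_ge (zpowers_le.mpr hb)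
    rw [Nat.card_zpowers, Nat.card_zpowers, h.orderOf_eq ha ha1, h.orderOf_eq hbA hb1]
  have key : ∀ u v : Γ, v ∈ zpowers u → Fx L u ≤ Fx L v := by
    intro u v hv x hx
    refine ⟨hx.1, ?_⟩
    have h1 : x * u = u * x := (mem_centralizer_singleton_iff.mp hx.2)
    obtain ⟨k, rfl⟩ := mem_zpowers_iff.mp hv
    have h2 : Commute x u := h1
    exact mem_centralizer_singleton_iff.mpr (h2.zpow_right k).eq
  have hab : a ∈ zpowers b := by
    rw [hz]
    exact mem_zpowers a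
  exact le_antisymm (key b a hab) (key a b hb)

/-- Invariance of fixed points. -/
theorem inv_fx {L : Subgroup Γ} (hL : Inv A L) {a : Γ} (ha : a ∈ A) : Inv A (Fx L a) := by
  refine Inv.inf hL (inv_of_conj ?_)
  intro c hc x hx
  have h1 : x * a = a * x := mem_centralizer_singleton_iff.mp hx
  have h2 := h.commA hc ha
  apply mem_centralizer_singleton_iff.mpr
  calc c * x * c⁻¹ * a = c * x * (c⁻¹ * a * c) * c⁻¹ := by group
    _ = c * x * a * c⁻¹ := by
      have e : c⁻¹ * a * c = a := by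
        rw [mul_assoc, ← h2]
        group
      rw [e]
    _ = c * (a * x) * c⁻¹ := by rw [mul_assoc c x a, h1]
    _ = (c * a) * x * c⁻¹ := by group
    _ = (a * c) * x * c⁻¹ := by rw [h2]
    _ = a * (c * x * c⁻¹) := by group

/-- Noncyclic generation. -/
theorem gen {L : Subgroup Γ} (hLG : L ≤ G) (hL : Inv A L) : (⨆ a ∈ Sharp A, Fx L a) = L := by
  haveI : IsMulCommutative A := ⟨⟨fun x y => Subtype.ext (h.commA x.2 y.2)⟩⟩
  exact Cfsg.Agent.Lib.Coprime.Generation.iSup_centralizer_eq h.ncA hL (h.copA_le hLG)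

/-- Fixed points commute. -/
theorem comm_fx {L : Subgroup Γ} (hL : L ≤ G) {a x y : Γ} (ha : a ∈ A) (ha1 : a ≠ 1) (hx : x ∈ Fx L a)
    (hy : y ∈ Fx L a) : x * y = y * x :=
  h.abel a ha ha1 x ⟨hL hx.1, hx.2⟩ y ⟨hL hy.1, hy.2⟩

theorem isSolvable_A : Group.IsSolvable A := by
  haveI : IsMulCommutative A := ⟨⟨fun x y => Subtype.ext (h.commA x.2 y.2)⟩⟩
  exact isSolvable_of_comm (fun x y => Subtype.ext (h.commA x.2 y.2))

end BaseNT

/-- Two different lines have no common fixed point. -/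
theorem Base.fx_inf (h : Base G A q) {L : Subgroup Γ} (hL : L ≤ G) {a b : Γ} (ha : a ∈ A) (ha1 : a ≠ 1)
    (hb : b ∈ A) (hb' : b ∉ zpowers a) : Fx L a ⊓ Fx L b = ⊥ := by
  rw [eq_bot_iff]
  rintro x ⟨⟨hxL, hxa⟩, ⟨-, hxb⟩⟩
  have hA : A ≤ centralizer ({x} : Set Γ) := by
    rw [← h.toBaseNT.sup_zpowers ha ha1 hb hb']
    refine sup_le (zpowers_le.mpr ?_) (zpowers_le.mpr ?_)
    · exact mem_centralizer_singleton_iff.mpr (mem_centralizer_singleton_iff.mp hxa).symm
    · exact mem_centralizer_singleton_iff.mpr (mem_centralizer_singleton_iff.mp hxb).symm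
  have h1 : x ∈ G ⊓ centralizer (A : Set Γ) := by
    refine ⟨hL hxL, mem_centralizer_iff.mpr (fun c hc => ?_)⟩
    exact (mem_centralizer_singleton_iff.mp (hA hc))
  rw [h.triv] at h1
  exact h1

end Cfsg.Agent.Lib.FpfPP
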