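/- Abelian decomposition: for `T ≤ G` abelian invariant, `T = ∏ C_T(line)`. -/
import Cfsg.Agent.Lib.FpfPP.Basic

set_option autoImplicit false

namespace Cfsg.Agent.Lib.FpfPP

open Subgroup

universe u

variable {Γ : Type u} [Group Γ] [Finite Γ] {G A : Subgroup Γ} {q : ℕ}

/-- The complement of the line `a`: generated by the fixed points of the other lines. -/
noncomputable def Tt (A T : Subgroup Γ) (a : Γ) : Subgroup Γ := ⨆ c ∈ Off A a, Fx T c

/-- The set of lines of `A` as a finset of subgroups. -/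
noncomputable def lines (A : Subgroup Γ) : Finset (Subgroup Γ) := by
  classical
  exact (Set.toFinite (Sharp A)).toFinset.image zpowers

theorem inf_centralizer_zpowers (T : Subgroup Γ) (a : Γ) :
    T ⊓ centralizer ((zpowers a : Subgroup Γ) : Set Γ) = Fx T a := by
  apply le_antisymm
  · rintro x ⟨hx, hc⟩
    exact ⟨hx, centralizer_le (by
      simpa using (mem_zpowers a)) hc⟩
  · rintro x ⟨hx, hc⟩
    refine ⟨hx, ?_⟩
    show x ∈ centralizer _
    rw [mem_centralizer_iff]
    intro y hy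
    obtain ⟨k, rfl⟩ := mem_zpowers_iff.mp hy
    have h1 : Commute x a := mem_centralizer_singleton_iff.mp hc
    exact (h1.zpow_right k).eq.symm

theorem mem_lines {B : Subgroup Γ} : B ∈ lines A ↔ ∃ c ∈ Sharp A, zpowers c = B := by
  classical
  simp [lines]

theorem Tt_le_self (T : Subgroup Γ) (a : Γ) : Tt A T a ≤ T :=
  iSup₂_le (fun _ _ => inf_le_left)

theorem Fx_le_Tt (T : Subgroup Γ) {a c : Γ} (hc : c ∈ Off A a) : Fx T c ≤ Tt A T a :=
  le_iSup₂_of_le c hc le_rfl

section

variable (h : Base G A q) {T : Subgroup Γ} (hTG : T ≤ G) (hTc : ∀ x ∈ T, ∀ y ∈ T, x * y = y * x)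
  (hT : Inv A T)

include h hT in
theorem inv_Tt (a : Γ) : Inv A (Tt A T a) := by
  refine inv_of_conj (fun c hc x hx => ?_)
  have hcn : c ∈ normalizer ((Tt A T a : Subgroup Γ) : Set Γ) := by
    have := Cfsg.Agent.Lib.Coprime.Generation2.le_normalizer_biSup A (Off A a) (fun c => Fx T c)
      (fun k _ => h.toBaseNT.inv_fx hT ((show k ∈ Off A a from ‹_›).1))
    exact this hc
  exact (mem_normalizer_iff.mp hcn x).mp hx

include h hTG hTc hT in
theorem fx_le_commutator {a c : Γ} (ha : a ∈ A) (ha1 : a ≠ 1) (hc : c ∈ A) (hc1 : c ≠ 1) (hca : c ∉ zpowers a) :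
    Fx T c ≤ ⁅T, zpowers a⁆ := by
  have hZ : zpowers a ≤ A := zpowers_le.mpr ha
  have hX : Inv (zpowers a) (Fx T c) := hZ.trans (h.toBaseNT.inv_fx hT hc)
  haveI hXc : IsMulCommutative (Fx T c) :=
    ⟨⟨fun x y => Subtype.ext (hTc x.1 x.2.1 y.1 y.2.1)⟩⟩
  have hcop : (Nat.card (zpowers a)).Coprime (Nat.card (Fx T c)) :=
    Nat.Coprime.coprime_dvd_right
      (Subgroup.card_dvd_of_le (inf_le_left.trans hTG)) (h.toBaseNT.copZ ha)
  have h1 := Cfsg.Agent.Lib.Coprime.Abelian.fixed_sup_commutator hX hcop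
  have h2 : Fx T c ⊓ centralizer ((zpowers a : Subgroup Γ) : Set Γ) = ⊥ := by
    rw [eq_bot_iff]
    rintro x ⟨hx, hxa⟩
    have h3 : x ∈ Fx T a := by
      have := inf_centralizer_zpowers T a
      rw [← this]
      exact ⟨hx.1, hxa⟩
    have h4 := h.fx_inf hTG ha ha1 hc hca
    have h5 : x ∈ Fx T a ⊓ Fx T c := ⟨h3, hx⟩
    rw [h4] at h5
    exact h5
  rw [h2, bot_sup_eq] at h1
  rw [← h1]
  exact Subgroup.commutator_mono inf_le_left le_rfl

include h hTG hTc hT

theorem ad_inf {a : Γ} (ha : a ∈ A) (ha1 : a ≠ 1) : Fx T a ⊓ Tt A T a = ⊥ := by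
  have hZ : zpowers a ≤ A := zpowers_le.mpr ha
  haveI hXc : IsMulCommutative T :=
    ⟨⟨fun x y => Subtype.ext (hTc x.1 x.2 y.1 y.2)⟩⟩
  have hX : Inv (zpowers a) T := hZ.trans hT
  have hcop : (Nat.card (zpowers a)).Coprime (Nat.card T) :=
    Nat.Coprime.coprime_dvd_right (Subgroup.card_dvd_of_le hTG) (h.toBaseNT.copZ ha)
  have h1 := Cfsg.Agent.Lib.Coprime.Abelian.inf_commutator_eq_bot hX hcop
  rw [inf_centralizer_zpowers] at h1
  rw [eq_bot_iff, ← h1]
  refine inf_le_inf_left _ (iSup₂_le (fun c hc => ?_))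
  have hc1 : c ≠ 1 := by
    rintro rfl
    exact hc.2 (one_mem _)
  exact fx_le_commutator h hTG hTc hT ha ha1 hc.1 hc1 hc.2

theorem ad_sup {a : Γ} (ha : a ∈ A) (ha1 : a ≠ 1) : Fx T a ⊔ Tt A T a = T := by
  apply le_antisymm (sup_le inf_le_left (Tt_le_self T a))
  conv_lhs => rw [← h.toBaseNT.gen hTG hT]
  refine iSup₂_le (fun c hc => ?_)
  by_cases hca : c ∈ zpowers a
  · rw [h.toBaseNT.fx_congr T ha ha1 hca hc.2]
    exact le_sup_left
  · exact (Fx_le_Tt T (show c ∈ Off A a from ⟨hc.1, hca⟩)).trans le_sup_right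

/-- Nothing lies in the complements of all the lines. -/
theorem mem_all_Tt_eq_one {t : Γ} (ht : t ∈ T) (hk : ∀ k ∈ Sharp A, t ∈ Tt A T k) : t = 1 := by
  let W : Subgroup Γ := T ⊓ ⨅ k ∈ Sharp A, Tt A T k
  have hWmem : ∀ x, x ∈ W ↔ x ∈ T ∧ ∀ k ∈ Sharp A, x ∈ Tt A T k := by
    intro x
    simp only [W, Subgroup.mem_inf, Subgroup.mem_iInf]
  have hWT : W ≤ T := inf_le_left
  have hW : Inv A W := by
    refine inv_of_conj (fun c hc x hx => ?_)
    obtain ⟨h1, h2⟩ := (hWmem x).mp hx
    refine (hWmem _).mpr ⟨conj_mem_of_inv hT hc h1, fun k hk' => ?_⟩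
    exact conj_mem_of_inv (inv_Tt h hT k) hc (h2 k hk')
  have h1 := h.toBaseNT.gen (hWT.trans hTG) hW
  have h2 : W = ⊥ := by
    rw [← h1, eq_bot_iff]
    refine iSup₂_le (fun c hc x hx => ?_)
    obtain ⟨h3, h4⟩ := (hWmem x).mp hx.1
    have h5 : x ∈ Fx T c ⊓ Tt A T c := ⟨⟨h3, hx.2⟩, h4 c hc⟩
    rw [ad_inf h hTG hTc hT hc.1 hc.2] at h5
    exact h5
  have h3 : t ∈ W := (hWmem t).mpr ⟨ht, hk⟩
  rw [h2] at h3
  exact h3

omit hTG hTc hT in
/-- The line only depends on a nontrivial element. -/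
theorem zpowers_eq_of_mem {a k : Γ} (ha : a ∈ A) (ha1 : a ≠ 1) (hk : k ∈ zpowers a) (hk1 : k ≠ 1) :
    zpowers k = zpowers a := by
  have hkA : k ∈ A := (zpowers_le.mpr ha) hk
  apply Subgroup.eq_of_le_of_card_ge (zpowers_le.mpr hk)
  rw [Nat.card_zpowers, Nat.card_zpowers, h.toBaseNT.orderOf_eq ha ha1, h.toBaseNT.orderOf_eq hkA hk1]

/-- An element in the complements of all lines other than `a` lies in the line of `a`. -/
theorem ad_cap {a t : Γ} (ha : a ∈ A) (ha1 : a ≠ 1) (ht : t ∈ T) (hk : ∀ k ∈ Off A a, t ∈ Tt A T k) :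
    t ∈ Fx T a := by
  have hsup := ad_sup h hTG hTc hT ha ha1
  have hn : Tt A T a ≤ normalizer ((Fx T a : Subgroup Γ) : Set Γ) := by
    intro y hy
    rw [mem_normalizer_iff]
    intro x
    have hyT : y ∈ T := Tt_le_self T a hy
    constructor
    · intro hx
      have e : y * x * y⁻¹ = x := by
        rw [hTc y hyT x hx.1, mul_inv_cancel_right]
      rw [e]
      exact hx
    · intro hx
      have e : y * x * y⁻¹ ∈ T := hx.1
      have hxT : x ∈ T := by
        have := T.mul_mem (T.mul_mem (T.inv_mem hyT) e) hyT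
        simpa [mul_assoc] using this
      have e : y * x * y⁻¹ = x := by
        rw [hTc y hyT x hxT, mul_inv_cancel_right]
      rw [e] at hx
      exact hx
  have ht' : t ∈ Fx T a ⊔ Tt A T a := by
    rw [hsup]
    exact ht
  obtain ⟨u, hu, v, hv, rfl⟩ := Cfsg.Agent.Lib.Coprime.Action.exists_mul_of_mem_sup hn ht'
  have hv1 : v = 1 := by
    refine mem_all_Tt_eq_one h hTG hTc hT (Tt_le_self T a hv) (fun k hk' => ?_)
    by_cases hka : k ∈ zpowers a
    · have e : Off A k = Off A a := by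
        ext x
        simp only [Off, Set.mem_setOf_eq, zpowers_eq_of_mem h ha ha1 hka hk'.2]
      have e2 : Tt A T k = Tt A T a := by
        unfold Tt
        rw [e]
      rw [e2]
      exact hv
    · have hak : a ∉ zpowers k := by
        intro h1
        have h2 := zpowers_eq_of_mem h hk'.1 hk'.2 h1 ha1
        apply hka
        rw [h2]
        exact mem_zpowers k
      have h3 : u ∈ Tt A T k := Fx_le_Tt T (show a ∈ Off A k from ⟨ha, hak⟩) hu
      have h4 := hk k ⟨hk'.1, hka⟩
      have h5 := (Tt A T k).mul_mem ((Tt A T k).inv_mem h3) h4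
      simpa using h5
  rw [hv1, mul_one]
  exact hu

/-- The order formula for abelian invariant subgroups. -/
theorem ad_card : Nat.card T = ∏ B ∈ lines A, Nat.card ↥(T ⊓ centralizer (B : Set Γ)) := by
  classical
  have key : ∀ S : Finset (Subgroup Γ), S ⊆ lines A →
      Nat.card ↥(⨆ B ∈ S, T ⊓ centralizer ((B : Subgroup Γ) : Set Γ))
        = ∏ B ∈ S, Nat.card ↥(T ⊓ centralizer (B : Set Γ)) := by
    intro S
    induction S using Finset.induction_on with
    | empty =>
      intro _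
      simp
    | insert B₀ S hB₀ ih =>
      intro hS
      rw [Finset.prod_insert hB₀, ← ih (fun B hB => hS (Finset.mem_insert_of_mem hB)), Finset.iSup_insert]
      obtain ⟨b, hb, rfl⟩ := mem_lines.mp (hS (Finset.mem_insert_self _ _))
      rw [inf_centralizer_zpowers]
      set Y : Subgroup Γ := ⨆ B ∈ S, T ⊓ centralizer ((B : Subgroup Γ) : Set Γ) with hY
      have hYT : Y ≤ Tt A T b := by
        refine iSup₂_le (fun B hB => ?_)
        obtain ⟨c, hc, rfl⟩ := mem_lines.mp (hS (Finset.mem_insert_of_mem hB))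
        rw [inf_centralizer_zpowers]
        refine Fx_le_Tt T (show c ∈ Off A b from ⟨hc.1, fun h1 => hB₀ ?_⟩)
        rw [← zpowers_eq_of_mem h hb.1 hb.2 h1 hc.2]
        exact hB
      have hYT' : Y ≤ T := hYT.trans (Tt_le_self T b)
      have hn : Y ≤ normalizer ((Fx T b : Subgroup Γ) : Set Γ) := by
        intro y hy
        have hyT := hYT' hy
        rw [mem_normalizer_iff]
        intro x
        constructor
        · intro hx
          have e : y * x * y⁻¹ = x := by
            rw [hTc y hyT x hx.1, mul_inv_cancel_right]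
          rw [e]
          exact hx
        · intro hx
          have e : y * x * y⁻¹ ∈ T := hx.1
          have hxT : x ∈ T := by
            have := T.mul_mem (T.mul_mem (T.inv_mem hyT) e) hyT
            simpa [mul_assoc] using this
          have e : y * x * y⁻¹ = x := by
            rw [hTc y hyT x hxT, mul_inv_cancel_right]
          rw [e] at hx
          exact hx
      have hinf : Fx T b ⊓ Y = ⊥ := by
        rw [eq_bot_iff, ← ad_inf h hTG hTc hT hb.1 hb.2]
        exact inf_le_inf_left _ hYT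
      exact (Cfsg.Agent.Lib.Coprime.Action.card_sup_of_le_normalizer hn hinf).symm
  have htop : (⨆ B ∈ lines A, T ⊓ centralizer ((B : Subgroup Γ) : Set Γ)) = T := by
    apply le_antisymm (iSup₂_le (fun _ _ => inf_le_left))
    conv_lhs => rw [← h.toBaseNT.gen hTG hT]
    refine iSup₂_le (fun c hc => ?_)
    rw [← inf_centralizer_zpowers]
    exact le_iSup₂_of_le (zpowers c) (mem_lines.mpr ⟨c, hc, rfl⟩) le_rfl
  have := key (lines A) subset_rfl
  rw [htop] at this
  exact this

end

end Cfsg.Agent.Lib.FpfPP
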