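/-
The basic summation identity for a "Frobenius pair" `W ⋊ ⟨x⟩` acting on an abelian group.
-/
import Mathlib

set_option autoImplicit false

namespace Cfsg.Agent.Lib.FpfPP.Sum

open Finset

variable {V W : Type*} [CommGroup V] [CommGroup W]

/-- The span of the `W`-translates of the `x`-fixed points of `U`. -/
def spanJ (ρ : W →* Monoid.End V) (x : Monoid.End V) (U : Subgroup V) : Subgroup V :=
  Subgroup.closure {g | ∃ w : W, ∃ c ∈ U, x c = c ∧ g = ρ w c}

theorem end_mul_apply (f g : Monoid.End V) (y : V) : (f * g) y = f (g y) := rfl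

theorem pow_rel (ρ : W →* Monoid.End V) (x : Monoid.End V) (φ : W →* W)
    (hφ : ∀ w, x * ρ w = ρ (φ w) * x) (k : ℕ) (w : W) :
    x ^ k * ρ w = ρ (φ^[k] w) * x ^ k := by
  induction k generalizing w with
  | zero => simp
  | succ k ih =>
    rw [pow_succ, mul_assoc, hφ, ← mul_assoc, ih, Function.iterate_succ_apply, mul_assoc]

theorem pow_rel_apply (ρ : W →* Monoid.End V) (x : Monoid.End V) (φ : W →* W)
    (hφ : ∀ w, x * ρ w = ρ (φ w) * x) (k : ℕ) (w : W) (y : V) :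
    (x ^ k) (ρ w y) = ρ (φ^[k] w) ((x ^ k) y) := by
  have := congrArg (fun f : Monoid.End V => f y) (pow_rel ρ x φ hφ k w)
  simpa [end_mul_apply] using this

theorem iterate_mulHom (φ : W →* W) (k : ℕ) (a b : W) : φ^[k] (a * b) = φ^[k] a * φ^[k] b := by
  induction k generalizing a b with
  | zero => rfl
  | succ k ih => simp only [Function.iterate_succ_apply, map_mul, ih]

theorem iterate_inv (φ : W →* W) (k : ℕ) (a : W) : φ^[k] a⁻¹ = (φ^[k] a)⁻¹ := by
  induction k generalizing a with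
  | zero => rfl
  | succ k ih => simp only [Function.iterate_succ_apply, map_inv, ih]

/-- `τ ↦ τ (φ^k τ)⁻¹` is a bijection when `φ` is fixed-point-free of prime "order" `q`, `0 < k < q`. -/
theorem bij_N [Finite W] {q : ℕ} (hq : q.Prime) (φ : W →* W) (hφq : ∀ w, φ^[q] w = w)
    (hfix : ∀ w, φ w = w → w = 1) {k : ℕ} (hk0 : 0 < k) (hkq : k < q) :
    Function.Bijective (fun τ : W => τ * (φ^[k] τ)⁻¹) := by
  apply Finite.injective_iff_bijective.mp
  intro a b hab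
  have h1 : a * b⁻¹ = φ^[k] (a * b⁻¹) := by
    simp only at hab
    rw [iterate_mulHom, iterate_inv]
    simp only [← div_eq_mul_inv] at hab ⊢
    exact div_eq_div_iff_mul_eq_mul.mpr ((div_eq_div_iff_mul_eq_mul.mp hab).trans (mul_comm _ _))
  have h3 : Function.IsPeriodicPt φ k (a * b⁻¹) := h1.symm
  have h4 : Function.IsPeriodicPt φ q (a * b⁻¹) := hφq _
  have h5 := h3.gcd h4
  have hg : Nat.gcd k q = 1 := (Nat.coprime_comm.mp ((Nat.Prime.coprime_iff_not_dvd hq).mpr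
    (Nat.not_dvd_of_pos_of_lt hk0 hkq)))
  rw [hg] at h5
  have h6 : φ (a * b⁻¹) = a * b⁻¹ := h5
  have := hfix _ h6
  exact mul_inv_eq_one.mp this

/-- The norm is fixed. -/
theorem norm_fixed (x : Monoid.End V) {q : ℕ} (hxq : x ^ q = 1) (y : V) :
    x (∏ k ∈ range q, (x ^ k) y) = ∏ k ∈ range q, (x ^ k) y := by
  rw [map_prod]
  have h1 : ∀ k ∈ range q, x ((x ^ k) y) = (x ^ (k + 1)) y := by
    intro k _
    rw [pow_succ']
    rfl
  rw [Finset.prod_congr rfl h1]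
  have h2 := Finset.prod_range_succ (fun k => (x ^ k) y) q
  have h3 := Finset.prod_range_succ' (fun k => (x ^ k) y) q
  rw [h2] at h3
  rw [hxq] at h3
  have h4 : (x ^ 0) y = y := rfl
  rw [h4] at h3
  have h5 : (1 : Monoid.End V) y = y := rfl
  rw [h5] at h3
  exact (mul_right_cancel h3).symm

variable [Fintype W]

/-- **The identity.** -/
theorem sum_identity {q : ℕ} (hq : q.Prime) (ρ : W →* Monoid.End V) (x : Monoid.End V) (φ : W →* W)
    (hφ : ∀ w, x * ρ w = ρ (φ w) * x) (hφq : ∀ w, φ^[q] w = w) (hxq : x ^ q = 1)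
    (hfix : ∀ w, φ w = w → w = 1)
    (U : Subgroup V) (hUW : ∀ w, ∀ u ∈ U, ρ w u ∈ U) (hUx : ∀ u ∈ U, x u ∈ U)
    {u : V} (hu : u ∈ U) :
    u ^ Fintype.card W * (∏ w, ρ w u)⁻¹ ∈ spanJ ρ x U := by
  classical
  have hUxk : ∀ k : ℕ, ∀ y ∈ U, (x ^ k) y ∈ U := by
    intro k
    induction k with
    | zero => intro y hy; exact hy
    | succ k ih =>
      intro y hy
      rw [pow_succ']
      exact hUx _ (ih y hy)
  set σ : V → V := fun y => ∏ w, ρ w y with hσ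
  have hσmul : ∀ a b : V, σ (a * b) = σ a * σ b := by
    intro a b
    simp only [hσ, map_mul, Finset.prod_mul_distrib]
  have hσinv : ∀ a : V, σ a⁻¹ = (σ a)⁻¹ := by
    intro a
    simp only [hσ, map_inv, Finset.prod_inv_distrib]
  have hσprod : ∀ (s : Finset ℕ) (f : ℕ → V), σ (∏ k ∈ s, f k) = ∏ k ∈ s, σ (f k) := by
    intro s f
    simp only [hσ, map_prod]
    rw [Finset.prod_comm]
  -- the fixed elements
  set c : W → V := fun τ => ∏ k ∈ range q, (x ^ k) (ρ τ⁻¹ u) with hc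
  have hcU : ∀ τ, c τ ∈ U := fun τ =>
    U.prod_mem (fun k _ => hUxk k _ (hUW _ _ hu))
  have hcx : ∀ τ, x (c τ) = c τ := fun τ => norm_fixed x hxq _
  have hmem : ∀ τ, ρ τ (c τ) ∈ spanJ ρ x U := fun τ =>
    Subgroup.subset_closure ⟨τ, c τ, hcU τ, hcx τ, rfl⟩
  have h1 : ∏ τ, ρ τ (c τ) ∈ spanJ ρ x U :=
    Subgroup.prod_mem _ (fun τ _ => hmem τ)
  -- rewriting each term
  have hterm : ∀ τ k, ρ τ ((x ^ k) (ρ τ⁻¹ u)) = ρ (τ * (φ^[k] τ)⁻¹) ((x ^ k) u) := by
    intro τ k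
    rw [pow_rel_apply ρ x φ hφ, iterate_inv, map_mul]
    rfl
  have h2 : ∏ τ, ρ τ (c τ) = ∏ k ∈ range q, ∏ τ, ρ (τ * (φ^[k] τ)⁻¹) ((x ^ k) u) := by
    rw [Finset.prod_comm]
    refine Finset.prod_congr rfl (fun τ _ => ?_)
    simp only [hc, map_prod]
    exact Finset.prod_congr rfl (fun k _ => hterm τ k)
  have hq0 : 0 < q := hq.pos
  obtain ⟨r, rfl⟩ : ∃ r, q = r + 1 := ⟨q - 1, by omega⟩
  have h3 : ∏ k ∈ range (r + 1), ∏ τ, ρ (τ * (φ^[k] τ)⁻¹) ((x ^ k) u) =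
      (∏ k ∈ range r, σ ((x ^ (k + 1)) u)) * u ^ Fintype.card W := by
    rw [Finset.prod_range_succ']
    congr 1
    · refine Finset.prod_congr rfl (fun k hk => ?_)
      have hbij := bij_N hq φ hφq hfix (k := k + 1) (by omega)
        (by have := Finset.mem_range.mp hk; omega)
      exact Function.Bijective.prod_comp hbij (fun w => ρ w ((x ^ (k + 1)) u))
    · simp
  set c₀ : V := ∏ k ∈ range (r + 1), (x ^ k) u with hc₀
  have hc₀U : c₀ ∈ U := U.prod_mem (fun k _ => hUxk k _ hu)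
  have hc₀x : x c₀ = c₀ := norm_fixed x hxq _
  have h4 : ∏ k ∈ range r, (x ^ (k + 1)) u = c₀ * u⁻¹ := by
    rw [hc₀, Finset.prod_range_succ']
    have : (x ^ 0) u = u := rfl
    rw [this]
    simp
  have h5 : (∏ k ∈ range r, σ ((x ^ (k + 1)) u)) = σ c₀ * (σ u)⁻¹ := by
    rw [← hσprod, h4, hσmul, hσinv]
  have h6 : σ c₀ ∈ spanJ ρ x U :=
    Subgroup.prod_mem _ (fun w _ => Subgroup.subset_closure ⟨w, c₀, hc₀U, hc₀x, rfl⟩)
  rw [h2, h3, h5] at h1
  have h7 : u ^ Fintype.card W * (σ u)⁻¹ = (σ c₀)⁻¹ * (σ c₀ * (σ u)⁻¹ * u ^ Fintype.card W) := by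
    rw [mul_assoc (σ c₀), inv_mul_cancel_left, mul_comm]
  have h8 := (spanJ ρ x U).mul_mem ((spanJ ρ x U).inv_mem h6) h1
  rw [← h7] at h8
  exact h8

end Cfsg.Agent.Lib.FpfPP.Sum
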