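/- The module-theoretic core: `Γ` acts on an abelian group `V` through `ρ`. -/
import Cfsg.Agent.Lib.FpfPP.Sum
import Cfsg.Agent.Lib.FpfPP.AD

set_option autoImplicit false

namespace Cfsg.Agent.Lib.FpfPP

open Subgroup

universe u v

variable {Γ : Type u} [Group Γ] [Finite Γ] {Y A : Subgroup Γ} {q : ℕ}
variable {V : Type v} [CommGroup V] [Finite V]

namespace CoreAux

/-- From a `MulAut` action to endomorphisms. -/
def toEnd : MulAut V →* Monoid.End V where
  toFun f := f.toMonoidHom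
  map_one' := rfl
  map_mul' _ _ := rfl

omit [Finite V] in
@[simp] theorem toEnd_apply (f : MulAut V) (v : V) : toEnd f v = f v := rfl

theorem mem_of_pow_coprime {n : ℕ} (hn : n.Coprime (Nat.card V)) {J : Subgroup V} {u : V}
    (hu : u ^ n ∈ J) : u ∈ J := by
  have h1 : u ^ Nat.card V = 1 := pow_card_eq_one'
  have hg : ((n : ℤ) * Int.gcdA n (Nat.card V) + (Nat.card V : ℤ) * Int.gcdB n (Nat.card V)) = 1 := by
    have := Int.gcd_eq_gcd_ab n (Nat.card V)
    rw [Int.gcd_natCast_natCast, hn] at this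
    simpa using this.symm
  have h2 : u = (u ^ n) ^ Int.gcdA n (Nat.card V) * (u ^ Nat.card V) ^ Int.gcdB n (Nat.card V) := by
    rw [← zpow_natCast, ← zpow_natCast, ← zpow_mul, ← zpow_mul, ← zpow_add, hg, zpow_one]
  rw [h2, h1, one_zpow, mul_one]
  exact J.zpow_mem hu _

variable {T : Subgroup Γ}

/-- The `T`-norm of a vector is `T`-fixed. -/
theorem norm_fixed_T [Fintype T] (ρ : Γ →* MulAut V) (u : V) (s : Γ) (hs : s ∈ T) :
    ρ s (∏ t : T, ρ t u) = ∏ t : T, ρ t u := by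
  rw [map_prod]
  refine Fintype.prod_equiv (Equiv.mulLeft (⟨s, hs⟩ : T)) _ _ fun t => ?_
  simp [map_mul]

/-- The basic identity for the action. -/
theorem key (hq : q.Prime) (ρ : Γ →* MulAut V) (hTc : ∀ x ∈ T, ∀ y ∈ T, x * y = y * x)
    {x : Γ} (hxT : x ∈ normalizer (T : Set Γ)) (hxq : x ^ q = 1) (hfpf : Fx T x = ⊥)
    (U : Subgroup V) (hUT : ∀ t ∈ T, ∀ u ∈ U, ρ t u ∈ U) (hUx : ∀ u ∈ U, ρ x u ∈ U)
    [Fintype T] {u : V} (hu : u ∈ U) :
    u ^ Nat.card T * (∏ t : T, ρ t u)⁻¹ ∈ closure {g | ∃ t ∈ T, ∃ c ∈ U, ρ x c = c ∧ g = ρ t c} := by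
  classical
  letI cT : CommGroup T := { (inferInstance : Group T) with
    mul_comm := fun a b => Subtype.ext (hTc a a.2 b b.2) }
  have hxmem : ∀ w : T, x * (w : Γ) * x⁻¹ ∈ T := fun w => (mem_normalizer_iff.mp hxT w).mp w.2
  let φ : T →* T :=
    { toFun := fun w => ⟨x * w * x⁻¹, hxmem w⟩
      map_one' := Subtype.ext (by simp)
      map_mul' := fun a b => Subtype.ext (by simp [mul_assoc]) }
  have hφval : ∀ w : T, ((φ w : T) : Γ) = x * w * x⁻¹ := fun w => rfl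
  let ρ' : T →* Monoid.End V := (toEnd.comp ρ).comp T.subtype
  let x' : Monoid.End V := toEnd (ρ x)
  have hρ' : ∀ (w : T) (v : V), ρ' w v = ρ w v := fun w v => rfl
  have hx' : ∀ v : V, x' v = ρ x v := fun v => rfl
  have hφ : ∀ w, x' * ρ' w = ρ' (φ w) * x' := by
    intro w
    ext v
    change ρ x (ρ w v) = ρ (x * w * x⁻¹) (ρ x v)
    simp [map_mul]
  have hφk : ∀ k : ℕ, ∀ w : T, ((φ^[k] w : T) : Γ) = x ^ k * w * (x ^ k)⁻¹ := by
    intro k
    induction k with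
    | zero => intro w; simp
    | succ k ih =>
      intro w
      rw [Function.iterate_succ_apply, ih, hφval, pow_succ]
      group
  have hφq : ∀ w, φ^[q] w = w := by
    intro w
    apply Subtype.ext
    rw [hφk, hxq]
    simp
  have hx'q : x' ^ q = 1 := by
    change (toEnd (ρ x)) ^ q = 1
    rw [← map_pow, ← map_pow, hxq, map_one, map_one]
  have hfix : ∀ w, φ w = w → w = 1 := by
    intro w hw
    have h1 : x * (w : Γ) * x⁻¹ = w := congrArg Subtype.val hw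
    have h2 : (w : Γ) ∈ Fx T x := by
      refine ⟨w.2, mem_centralizer_singleton_iff.2 ?_⟩
      rw [mul_inv_eq_iff_eq_mul] at h1
      exact h1.symm
    rw [hfpf, mem_bot] at h2
    exact Subtype.ext h2
  have h := Sum.sum_identity hq ρ' x' φ hφ hφq hx'q hfix U (fun w u hu => hUT w w.2 u hu) hUx hu
  have hcard : Fintype.card T = Nat.card T := (Nat.card_eq_fintype_card).symm
  rw [hcard] at h
  have hle : Sum.spanJ ρ' x' U ≤ closure {g | ∃ t ∈ T, ∃ c ∈ U, ρ x c = c ∧ g = ρ t c} := by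
    apply (closure_le _).2
    rintro g ⟨w, c, hc, hxc, rfl⟩
    exact subset_closure ⟨w, w.2, c, hc, hxc, rfl⟩
  exact hle h

end CoreAux

open CoreAux

/-- **KL**: `V` is generated by the `T`-translates of `C_V(x)` when `C_V(T) = 1`, `T` abelian,
`x` acting fixed-point-freely on `T`, `x^q = 1`. -/
theorem core_kl (hq : q.Prime) (ρ : Γ →* MulAut V) {T : Subgroup Γ} (hTc : ∀ x ∈ T, ∀ y ∈ T, x * y = y * x)
    {x : Γ} (hxT : x ∈ normalizer (T : Set Γ)) (hxq : x ^ q = 1) (hfpf : Fx T x = ⊥)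
    (hcop : (Nat.card T).Coprime (Nat.card V))
    (U : Subgroup V) (hUT : ∀ t ∈ T, ∀ u ∈ U, ρ t u ∈ U) (hUx : ∀ u ∈ U, ρ x u ∈ U)
    (hfix : ∀ u ∈ U, (∀ t ∈ T, ρ t u = u) → u = 1) :
    U ≤ closure {g | ∃ t ∈ T, ∃ c ∈ U, ρ x c = c ∧ g = ρ t c} := by
  classical
  letI : Fintype T := Fintype.ofFinite T
  intro u hu
  have h := key hq ρ hTc hxT hxq hfpf U hUT hUx hu
  have hn : (∏ t : T, ρ t u) = 1 := by
    apply hfix
    · exact U.prod_mem fun t _ => hUT t t.2 u hu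
    · intro s hs
      exact norm_fixed_T ρ u s hs
  rw [hn, inv_one, mul_one] at h
  exact mem_of_pow_coprime hcop h

/-- **Fr**: if `C_U(x) = 1` then `T` acts trivially on `U`. -/
theorem core_fr (hq : q.Prime) (ρ : Γ →* MulAut V) {T : Subgroup Γ} (hTc : ∀ x ∈ T, ∀ y ∈ T, x * y = y * x)
    {x : Γ} (hxT : x ∈ normalizer (T : Set Γ)) (hxq : x ^ q = 1) (hfpf : Fx T x = ⊥)
    (hcop : (Nat.card T).Coprime (Nat.card V))
    (U : Subgroup V) (hUT : ∀ t ∈ T, ∀ u ∈ U, ρ t u ∈ U) (hUx : ∀ u ∈ U, ρ x u ∈ U)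
    (hfix : ∀ u ∈ U, ρ x u = u → u = 1) : ∀ t ∈ T, ∀ u ∈ U, ρ t u = u := by
  classical
  letI : Fintype T := Fintype.ofFinite T
  intro s hs u hu
  have h := key hq ρ hTc hxT hxq hfpf U hUT hUx hu
  have hJ : closure {g | ∃ t ∈ T, ∃ c ∈ U, ρ x c = c ∧ g = ρ t c} = ⊥ := by
    rw [closure_eq_bot_iff]
    rintro g ⟨t, ht, c, hc, hxc, rfl⟩
    rw [hfix c hc hxc, map_one]
    rfl
  rw [hJ, mem_bot, mul_inv_eq_one] at h
  -- `u ^ |T|` is fixed
  let Fs : Subgroup V :=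
    { carrier := {v | ρ s v = v}
      one_mem' := map_one _
      mul_mem' := fun {a b} ha hb => by
        change ρ s (a * b) = a * b
        rw [map_mul, ha, hb]
      inv_mem' := fun {a} ha => by
        change ρ s a⁻¹ = a⁻¹
        rw [map_inv, ha] }
  have h2 : u ^ Nat.card T ∈ Fs := by
    change ρ s (u ^ Nat.card T) = u ^ Nat.card T
    rw [h]
    exact norm_fixed_T ρ u s hs
  exact mem_of_pow_coprime hcop h2

namespace CoreAux

/-- The commutators with a subgroup. -/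
def VV (ρ : Γ →* MulAut V) (L : Subgroup Γ) : Subgroup V := closure {g | ∃ t ∈ L, ∃ v : V, g = ρ t v * v⁻¹}

variable {T L : Subgroup Γ} (ρ : Γ →* MulAut V)

theorem VV_stable {s : Γ} (hs : ∀ t ∈ L, s * t * s⁻¹ ∈ L) {u : V} (hu : u ∈ VV ρ L) : ρ s u ∈ VV ρ L := by
  have hle : VV ρ L ≤ (VV ρ L).comap (ρ s).toMonoidHom := by
    apply (closure_le _).2
    rintro g ⟨t, ht, v, rfl⟩
    change ρ s (ρ t v * v⁻¹) ∈ VV ρ L
    have h1 : ρ s (ρ t v * v⁻¹) = ρ (s * t * s⁻¹) (ρ s v) * (ρ s v)⁻¹ := by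
      simp [map_mul]
    rw [h1]
    exact subset_closure ⟨_, hs t ht, _, rfl⟩
  exact hle hu

theorem VV_inf (hcop : (Nat.card L).Coprime (Nat.card V)) {u : V} (hu : u ∈ VV ρ L)
    (hfix : ∀ t ∈ L, ρ t u = u) : u = 1 := by
  classical
  letI : Fintype L := Fintype.ofFinite L
  let Ks : Subgroup V :=
    { carrier := {v | ∏ t : L, ρ t v = 1}
      one_mem' := by simp
      mul_mem' := fun {a b} ha hb => by
        change ∏ t : L, ρ t (a * b) = 1
        simp only [map_mul, Finset.prod_mul_distrib]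
        rw [ha, hb, one_mul]
      inv_mem' := fun {a} ha => by
        change ∏ t : L, ρ t a⁻¹ = 1
        simp only [map_inv, Finset.prod_inv_distrib]
        rw [ha, inv_one] }
  have hle : VV ρ L ≤ Ks := by
    apply (closure_le _).2
    rintro g ⟨t, ht, v, rfl⟩
    change ∏ s : L, ρ s (ρ t v * v⁻¹) = 1
    simp only [map_mul, map_inv, Finset.prod_mul_distrib, Finset.prod_inv_distrib]
    have h1 : ∏ s : L, (ρ s) ((ρ t) v) = ∏ s : L, ρ s v := by
      refine Fintype.prod_equiv (Equiv.mulRight (⟨t, ht⟩ : L)) _ _ fun s => ?_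
      simp [map_mul]
    change (∏ s : L, (ρ s) ((ρ t) v)) * (∏ s : L, ρ s v)⁻¹ = 1
    rw [h1, mul_inv_cancel]
  have h2 : ∏ t : L, ρ t u = 1 := hle hu
  have h3 : ∏ t : L, ρ t u = u ^ Nat.card L := by
    rw [Finset.prod_congr rfl (fun (t : L) _ => hfix t t.2), Finset.prod_const, Finset.card_univ,
      Nat.card_eq_fintype_card]
  rw [h3] at h2
  have h4 : u ∈ (⊥ : Subgroup V) := mem_of_pow_coprime hcop (by rw [h2]; exact one_mem _)
  exact h4

/-- A decomposition of an element of a product inside an abelian subgroup. -/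
theorem mem_sup_comm {H K : Subgroup Γ} (hH : H ≤ T) (hK : K ≤ T)
    (hTc : ∀ x ∈ T, ∀ y ∈ T, x * y = y * x) {x : Γ} (hx : x ∈ H ⊔ K) : ∃ s ∈ H, ∃ r ∈ K, x = s * r := by
  let M : Subgroup Γ :=
    { carrier := {x | ∃ s ∈ H, ∃ r ∈ K, x = s * r}
      one_mem' := ⟨1, H.one_mem, 1, K.one_mem, by simp⟩
      mul_mem' := by
        rintro a b ⟨s, hs, r, hr, rfl⟩ ⟨s', hs', r', hr', rfl⟩
        refine ⟨s * s', H.mul_mem hs hs', r * r', K.mul_mem hr hr', ?_⟩
        calc s * r * (s' * r') = s * (r * s') * r' := by group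
          _ = s * (s' * r) * r' := by rw [hTc r (hK hr) s' (hH hs')]
          _ = s * s' * (r * r') := by group
      inv_mem' := by
        rintro a ⟨s, hs, r, hr, rfl⟩
        refine ⟨s⁻¹, H.inv_mem hs, r⁻¹, K.inv_mem hr, ?_⟩
        rw [mul_inv_rev]
        exact hTc _ (hK (K.inv_mem hr)) _ (hH (H.inv_mem hs)) }
  have hle : H ⊔ K ≤ M := sup_le (fun s hs => ⟨s, hs, 1, K.one_mem, by simp⟩)
    (fun r hr => ⟨1, H.one_mem, r, hr, by simp⟩)
  exact hle hx

end CoreAux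

section Two

variable (h : Base Y A q) (ρ : Γ →* MulAut V) {T : Subgroup Γ} (hTY : T ≤ Y)
    (hTc : ∀ x ∈ T, ∀ y ∈ T, x * y = y * x) (hT : Inv A T)
    (hcop : (Nat.card T).Coprime (Nat.card V))
    (hq : ¬ q ∣ Nat.card V)
    (hfix : ∀ v : V, (∀ t ∈ T, ρ t v = v) → v = 1)
    (hstar : ∀ a ∈ A, a ≠ 1 → ∀ t ∈ Fx T a, ∀ v : V, ρ a v = v → ρ t v = v)

omit [Finite V] in
theorem Tt_le (a : Γ) : Tt A T a ≤ T := by
  unfold Tt
  exact iSup₂_le fun c _ => inf_le_left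

include h hT in
theorem Tt_conj {s a : Γ} (hs : s ∈ A) {x : Γ} (hx : x ∈ Tt A T a) : s * x * s⁻¹ ∈ Tt A T a := by
  have hle : Tt A T a ≤ (Tt A T a).comap (MulAut.conj s).toMonoidHom := by
    refine iSup₂_le fun c hc y hy => ?_
    change s * y * s⁻¹ ∈ Tt A T a
    have h1 := conj_mem_of_inv (h.toBaseNT.inv_fx hT hc.1) hs hy
    exact (le_iSup₂ (f := fun c (_ : c ∈ Off A a) => Fx T c) c hc) h1
  exact hle hx

include h in
theorem line_symm {a b : Γ} (ha : a ∈ A) (ha1 : a ≠ 1) (hb : b ∈ A) (hb1 : b ≠ 1) (hab : a ∈ zpowers b) :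
    b ∈ zpowers a := by
  have hle : zpowers a ≤ zpowers b := by
    rw [zpowers_le]
    exact hab
  have heq : zpowers a = zpowers b := by
    apply eq_of_le_of_card_ge hle
    rw [Nat.card_zpowers, Nat.card_zpowers, h.toBaseNT.orderOf_eq ha ha1, h.toBaseNT.orderOf_eq hb hb1]
  rw [heq]
  exact mem_zpowers b

include h in
theorem Off_symm {a b : Γ} (ha : a ∈ A) (ha1 : a ≠ 1) (hb : b ∈ A) (hb1 : b ≠ 1) (hab : a ∉ zpowers b) :
    b ∈ Off A a :=
  ⟨hb, fun hba => hab (line_symm h hb hb1 ha ha1 hba)⟩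

theorem card_le_coprime {L : Subgroup Γ} (hL : L ≤ T) (hcop : (Nat.card T).Coprime (Nat.card V)) :
    (Nat.card L).Coprime (Nat.card V) :=
  Nat.Coprime.coprime_dvd_left (Subgroup.card_dvd_of_le hL) hcop

include h hTY hTc hT hcop hstar in
/-- (F) The complement of the line of `a` fixes `V_a`. -/
theorem step_F {a : Γ} (ha : a ∈ A) (ha1 : a ≠ 1) {t : Γ} (ht : t ∈ Tt A T a) {u : V}
    (hu : u ∈ VV ρ (Fx T a)) : ρ t u = u := by
  have hTt := Tt_le (A := A) (T := T) a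
  have hcT : (Nat.card (Fx T a)).Coprime (Nat.card V) := card_le_coprime inf_le_left hcop
  refine core_fr h.hq ρ (T := Tt A T a) (fun x hx y hy => hTc x (hTt hx) y (hTt hy)) (x := a) ?_
    (h.toBaseNT.pow_q ha) ?_ (card_le_coprime hTt hcop) (VV ρ (Fx T a)) ?_ ?_ ?_ t ht u hu
  · rw [mem_normalizer_iff]
    intro y
    refine ⟨fun hy => Tt_conj h hT ha hy, fun hy => ?_⟩
    have := Tt_conj h hT (A.inv_mem ha) hy
    have e : a⁻¹ * (a * y * a⁻¹) * a⁻¹⁻¹ = y := by group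
    rwa [e] at this
  · rw [eq_bot_iff]
    rintro y ⟨hy1, hy2⟩
    have h1 := ad_inf h hTY hTc hT ha ha1
    have h2 : y ∈ Fx T a ⊓ Tt A T a := ⟨⟨hTt hy1, hy2⟩, hy1⟩
    rwa [h1] at h2
  · intro s hs w hw
    refine VV_stable ρ (fun x hx => ?_) hw
    have hc := hTc s (hTt hs) x hx.1
    rw [hc]
    simpa using hx
  · intro w hw
    refine VV_stable ρ (fun x hx => ?_) hw
    have hc : a * x = x * a := (mem_centralizer_singleton_iff.1 hx.2).symm
    rw [hc]
    simpa using hx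
  · intro w hw hax
    exact VV_inf ρ hcT hw (fun s hs => hstar a ha ha1 s hs w hax)

include h hTY hTc hT hcop hfix in
/-- (D) The `V_a` generate `V`. -/
theorem step_D (v : V) : v ∈ ⨆ a ∈ Sharp A, VV ρ (Fx T a) := by
  classical
  letI : Fintype T := Fintype.ofFinite T
  set W : Subgroup V := ⨆ a ∈ Sharp A, VV ρ (Fx T a) with hW
  -- the elements of `T` moving everything into `W`
  let Ms : Subgroup Γ :=
    { carrier := {t | ∀ v : V, ρ t v * v⁻¹ ∈ W}
      one_mem' := fun v => by simp [W.one_mem]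
      mul_mem' := fun {s t} hs ht v => by
        have h1 := W.mul_mem (hs (ρ t v)) (ht v)
        have e : ρ (s * t) v * v⁻¹ = ρ s (ρ t v) * (ρ t v)⁻¹ * (ρ t v * v⁻¹) := by
          rw [map_mul]
          change ρ s (ρ t v) * v⁻¹ = _
          group
        rw [e]
        exact h1
      inv_mem' := fun {t} ht v => by
        have h1 := W.inv_mem (ht (ρ t⁻¹ v))
        have e : (ρ t (ρ t⁻¹ v)) = v := by
          rw [← MulAut.mul_apply, ← map_mul, mul_inv_cancel, map_one, MulAut.one_apply]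
        rw [e] at h1
        have e2 : (v * (ρ t⁻¹ v)⁻¹)⁻¹ = ρ t⁻¹ v * v⁻¹ := by
          rw [mul_inv_rev, inv_inv]
        rwa [e2] at h1 }
  have hTM : T ≤ Ms := by
    rw [← h.toBaseNT.gen (L := T) hTY hT]
    refine iSup₂_le fun a ha t ht v => ?_
    have h1 : ρ t v * v⁻¹ ∈ VV ρ (Fx T a) := subset_closure ⟨t, ht, v, rfl⟩
    exact (le_iSup₂ (f := fun a (_ : a ∈ Sharp A) => VV ρ (Fx T a)) a ha) h1
  -- the norm is trivial
  have hn : (∏ t : T, ρ t v) = 1 := by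
    apply hfix
    intro s hs
    exact norm_fixed_T ρ v s hs
  have h2 : v ^ Nat.card T ∈ W := by
    have e : v ^ Nat.card T = (∏ t : T, (ρ t v * v⁻¹))⁻¹ * ∏ t : T, ρ t v := by
      rw [Finset.prod_mul_distrib, Finset.prod_inv_distrib, Finset.prod_const, Finset.card_univ,
        ← Nat.card_eq_fintype_card]
      simp only [hn, mul_one, one_mul, inv_inv]
    rw [e, hn, mul_one]
    exact W.inv_mem (W.prod_mem fun t _ => hTM t.2 v)
  exact mem_of_pow_coprime hcop h2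

include h hTc hT hcop hfix in
/-- (G) `V_a` is generated by the `T_a`-translates of `C_{V_a}(b)`. -/
theorem step_G {a b : Γ} (ha : a ∈ A) (ha1 : a ≠ 1) (hb : b ∈ A) (hab : b ∉ zpowers a) (hTY : T ≤ Y) :
    VV ρ (Fx T a) ≤ closure {g | ∃ t ∈ Fx T a, ∃ c ∈ VV ρ (Fx T a), ρ b c = c ∧ g = ρ t c} := by
  have hcT : (Nat.card (Fx T a)).Coprime (Nat.card V) := card_le_coprime inf_le_left hcop
  refine core_kl h.hq ρ (T := Fx T a) (fun x hx y hy => hTc x hx.1 y hy.1) (x := b)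
    (h.toBaseNT.inv_fx hT ha hb) (h.toBaseNT.pow_q hb) ?_ hcT (VV ρ (Fx T a)) ?_ ?_ ?_
  · rw [eq_bot_iff]
    rintro y ⟨hy1, hy2⟩
    have h1 := h.fx_inf hTY ha ha1 hb hab
    have h2 : y ∈ Fx T a ⊓ Fx T b := ⟨hy1, ⟨hy1.1, hy2⟩⟩
    rwa [h1] at h2
  · intro s hs w hw
    refine VV_stable ρ (fun x hx => ?_) hw
    have hc := hTc s hs.1 x hx.1
    rw [hc]
    simpa using hx
  · intro w hw
    refine VV_stable ρ (fun x hx => ?_) hw
    exact conj_mem_of_inv (h.toBaseNT.inv_fx hT ha) hb hx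
  · intro u hu hf
    exact VV_inf ρ hcT hu hf

end Two

/-- Core of Case 2 of the chief factor lemma. `T ≤ Y` abelian invariant, acting faithfully on `V`, with
`C_V(T) = 1` and (⋆) for `T`.  An `e` normalizing `T`, commuting with `b ∈ A^#` and fixing `C_V(b)` pointwise
normalizes every `C_T(a)`. -/
theorem core_two (h : Base Y A q) (ρ : Γ →* MulAut V) {T : Subgroup Γ} (hTY : T ≤ Y)
    (hTc : ∀ x ∈ T, ∀ y ∈ T, x * y = y * x) (hT : Inv A T)
    (hfaith : ∀ t ∈ T, ρ t = 1 → t = 1) (hcop : (Nat.card T).Coprime (Nat.card V))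
    (hq : ¬ q ∣ Nat.card V)
    (hfix : ∀ v : V, (∀ t ∈ T, ρ t v = v) → v = 1)
    (hstar : ∀ a ∈ A, a ≠ 1 → ∀ t ∈ Fx T a, ∀ v : V, ρ a v = v → ρ t v = v)
    {e b : Γ} (he : e ∈ normalizer (T : Set Γ)) (hb : b ∈ A) (hb1 : b ≠ 1) (heb : e * b = b * e)
    (hefix : ∀ v : V, ρ b v = v → ρ e v = v)
    {a : Γ} (ha : a ∈ A) (ha1 : a ≠ 1) {t : Γ} (ht : t ∈ Fx T a) : e * t * e⁻¹ ∈ Fx T a := by
  classical
  have hF := fun {a : Γ} (ha : a ∈ A) (ha1 : a ≠ 1) {t : Γ} (ht : t ∈ Tt A T a) {u : V}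
      (hu : u ∈ VV ρ (Fx T a)) => step_F h ρ hTY hTc hT hcop hstar ha ha1 ht hu
  have heT : ∀ t ∈ T, e * t * e⁻¹ ∈ T := fun t ht => (mem_normalizer_iff.mp he t).mp ht
  have hq' : ¬ q ∣ Nat.card T := fun hd =>
    h.toBaseNT.cop (hd.trans (Subgroup.card_dvd_of_le hTY))
  -- (N) `e` normalizes the complement of a line different from that of `b`
  have hN : ∀ {k : Γ}, k ∈ A → k ≠ 1 → b ∉ zpowers k → ∀ {r : Γ}, r ∈ Tt A T k → e * r * e⁻¹ ∈ Tt A T k := by
    intro k hk hk1 hbk r hr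
    have hrT := Tt_le (A := A) (T := T) k hr
    have hsup := ad_sup h hTY hTc hT hk hk1
    have hr' : e * r * e⁻¹ ∈ Fx T k ⊔ Tt A T k := by
      rw [hsup]
      exact heT r hrT
    obtain ⟨s, hs, r', hr'', hsr⟩ := mem_sup_comm (T := T) inf_le_left (Tt_le k) hTc hr'
    -- `s` fixes `C_{V_k}(b)`
    have hfix1 : ∀ c ∈ VV ρ (Fx T k), ρ b c = c → ρ s c = c := by
      intro c hc hbc
      have h1 : ρ e c = c := hefix c hbc
      have h2 : ρ e⁻¹ c = c := by
        conv_lhs => rw [← h1]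
        rw [← MulAut.mul_apply, ← map_mul, inv_mul_cancel, map_one, MulAut.one_apply]
      have h3 : ρ (e * r * e⁻¹) c = c := by
        rw [map_mul, map_mul]
        change ρ e (ρ r (ρ e⁻¹ c)) = c
        rw [h2, hF hk hk1 hr hc, h1]
      rw [hsr, map_mul] at h3
      change ρ s (ρ r' c) = c at h3
      rwa [hF hk hk1 hr'' hc] at h3
    -- so `s` fixes `V_k`
    let Fs : Subgroup V :=
      { carrier := {v | ρ s v = v}
        one_mem' := map_one _
        mul_mem' := fun {a b} ha hb => by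
          change ρ s (a * b) = a * b
          rw [map_mul, ha, hb]
        inv_mem' := fun {a} ha => by
          change ρ s a⁻¹ = a⁻¹
          rw [map_inv, ha] }
    have hsk : VV ρ (Fx T k) ≤ Fs := by
      refine (step_G h ρ hTc hT hcop hfix hk hk1 hb hbk hTY).trans ((closure_le _).2 ?_)
      rintro g ⟨w, hw, c, hc, hbc, rfl⟩
      change ρ s (ρ w c) = ρ w c
      rw [← MulAut.mul_apply, ← map_mul, hTc s hs.1 w hw.1, map_mul, MulAut.mul_apply, hfix1 c hc hbc]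
    -- and all the others
    have hall : ∀ c ∈ Sharp A, VV ρ (Fx T c) ≤ Fs := by
      rintro c ⟨hc, hc1⟩
      by_cases hck : c ∈ zpowers k
      · rw [h.toBaseNT.fx_congr T hk hk1 hck hc1]
        exact hsk
      · intro u hu
        have hkc : k ∈ Off A c := Off_symm h hc hc1 hk hk1 hck
        exact hF hc hc1 ((le_iSup₂ (f := fun c' (_ : c' ∈ Off A c) => Fx T c') k hkc) hs) hu
    have hs1 : s = 1 := by
      apply hfaith s hs.1
      ext v
      have hv := step_D h ρ hTY hTc hT hcop hfix v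
      have : v ∈ Fs := (iSup₂_le hall) hv
      exact this
    rw [hsr, hs1, one_mul]
    exact hr''
  -- `e` normalizes the complement of the line of `b`
  have hNb : ∀ {r : Γ}, r ∈ Tt A T b → e * r * e⁻¹ ∈ Tt A T b := by
    intro r hr
    have hTt := Tt_le (A := A) (T := T) b
    have hinf := ad_inf h hTY hTc hT hb hb1
    have hsup := ad_sup h hTY hTc hT hb hb1
    let f : Tt A T b → Tt A T b := fun y =>
      ⟨(y : Γ)⁻¹ * (b * y * b⁻¹), (Tt A T b).mul_mem ((Tt A T b).inv_mem y.2) (Tt_conj h hT hb y.2)⟩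
    have hinj : Function.Injective f := by
      rintro ⟨y₁, hy₁⟩ ⟨y₂, hy₂⟩ hy
      have h1 : y₁⁻¹ * (b * y₁ * b⁻¹) = y₂⁻¹ * (b * y₂ * b⁻¹) := congrArg Subtype.val hy
      have hc12 : y₁ * y₂⁻¹ ∈ Tt A T b := (Tt A T b).mul_mem hy₁ ((Tt A T b).inv_mem hy₂)
      -- the quotient is fixed by `b`
      have h2 : b * (y₁ * y₂⁻¹) * b⁻¹ = y₁ * y₂⁻¹ := by
        have e1 : b * (y₁ * y₂⁻¹) * b⁻¹ = (b * y₁ * b⁻¹) * (b * y₂ * b⁻¹)⁻¹ := by group
        have e2 : b * y₁ * b⁻¹ = y₁ * (y₂⁻¹ * (b * y₂ * b⁻¹)) := by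
          rw [← h1]
          group
        rw [e1, e2]
        group
      have h3 : y₁ * y₂⁻¹ ∈ Fx T b ⊓ Tt A T b := by
        refine ⟨⟨hTt hc12, mem_centralizer_singleton_iff.2 ?_⟩, hc12⟩
        rw [mul_inv_eq_iff_eq_mul] at h2
        exact h2.symm
      rw [hinf, mem_bot, mul_inv_eq_one] at h3
      exact Subtype.ext h3
    obtain ⟨⟨y, hy⟩, hfy⟩ := (Finite.injective_iff_surjective.mp hinj) ⟨r, hr⟩
    have hfy' : y⁻¹ * (b * y * b⁻¹) = r := congrArg Subtype.val hfy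
    have hy' : e * y * e⁻¹ ∈ Fx T b ⊔ Tt A T b := by
      rw [hsup]
      exact heT y (hTt hy)
    obtain ⟨s, hs, y', hy'', hsy⟩ := mem_sup_comm (T := T) inf_le_left (Tt_le b) hTc hy'
    have hsb : b * s = s * b := (mem_centralizer_singleton_iff.1 hs.2).symm
    have hkey : e * r * e⁻¹ = y'⁻¹ * (b * y' * b⁻¹) := by
      have e1 : e * r * e⁻¹ = (e * y * e⁻¹)⁻¹ * (b * (e * y * e⁻¹) * b⁻¹) := by
        rw [← hfy']
        have k1 : e⁻¹ * b * e = b := by
          rw [mul_assoc, ← heb]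
          group
        have k2 : e⁻¹ * b⁻¹ = b⁻¹ * e⁻¹ := by
          have : (b * e)⁻¹ = (e * b)⁻¹ := by rw [heb]
          simpa using this
        symm
        calc (e * y * e⁻¹)⁻¹ * (b * (e * y * e⁻¹) * b⁻¹)
            = e * y⁻¹ * (e⁻¹ * b * e) * y * (e⁻¹ * b⁻¹) := by group
          _ = e * y⁻¹ * b * y * (b⁻¹ * e⁻¹) := by rw [k1, k2]
          _ = e * (y⁻¹ * (b * y * b⁻¹)) * e⁻¹ := by group
      rw [e1, hsy]
      calc (s * y')⁻¹ * (b * (s * y') * b⁻¹) = y'⁻¹ * s⁻¹ * ((b * s) * y' * b⁻¹) := by group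
        _ = y'⁻¹ * s⁻¹ * ((s * b) * y' * b⁻¹) := by rw [hsb]
        _ = _ := by group
    rw [hkey]
    exact (Tt A T b).mul_mem ((Tt A T b).inv_mem hy'') (Tt_conj h hT hb hy'')
  by_cases hab : a ∈ zpowers b
  · rw [h.toBaseNT.fx_congr T hb hb1 hab ha1] at ht ⊢
    refine ⟨heT t ht.1, mem_centralizer_singleton_iff.2 ?_⟩
    have h1 : t * b = b * t := mem_centralizer_singleton_iff.1 ht.2
    have hebi : e⁻¹ * b = b * e⁻¹ := by
      calc e⁻¹ * b = e⁻¹ * (b * e) * e⁻¹ := by group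
        _ = e⁻¹ * (e * b) * e⁻¹ := by rw [heb]
        _ = b * e⁻¹ := by group
    calc e * t * e⁻¹ * b = e * t * (e⁻¹ * b) := by group
      _ = e * (t * b) * e⁻¹ := by rw [hebi]; group
      _ = (e * b) * t * e⁻¹ := by rw [h1]; group
      _ = b * (e * t * e⁻¹) := by rw [heb]; group
  · refine ad_cap h hTY hTc hT ha ha1 (heT t ht.1) (fun k hk => ?_)
    have hk1 : k ≠ 1 := by
      rintro rfl
      exact hk.2 (one_mem _)
    have haoff : a ∈ Off A k := Off_symm h hk.1 hk1 ha ha1 hk.2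
    have htk : t ∈ Tt A T k := (le_iSup₂ (f := fun c' (_ : c' ∈ Off A k) => Fx T c') a haoff) ht
    by_cases hkb : k ∈ zpowers b
    · have heq : zpowers k = zpowers b := by
        apply eq_of_le_of_card_ge ((zpowers_le).2 hkb)
        rw [Nat.card_zpowers, Nat.card_zpowers, h.toBaseNT.orderOf_eq hk.1 hk1, h.toBaseNT.orderOf_eq hb hb1]
      have hOff : Off A k = Off A b := by
        ext c
        simp only [Off, Set.mem_setOf_eq, heq]
      have hTeq : Tt A T k = Tt A T b := by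
        simp only [Tt, hOff]
      rw [hTeq] at htk ⊢
      exact hNb htk
    · exact hN hk.1 hk1 (fun hbk => hkb (line_symm h hb hb1 hk.1 hk1 hbk)) htk

end Cfsg.Agent.Lib.FpfPP
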