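/- Passing to quotients and to subgroups. -/
import Cfsg.Agent.Lib.FpfPP.Basic

set_option autoImplicit false

namespace Cfsg.Agent.Lib.FpfPP

open Subgroup

universe u

variable {Γ : Type u} [Group Γ] [Finite Γ] {G A : Subgroup Γ} {q : ℕ}

/-- Fixed points of a quotient are images of fixed points (coprime action). -/
theorem fx_map_mk (h : BaseNT G A q) (N : Subgroup Γ) [N.Normal] (hNG : N ≤ G) {L : Subgroup Γ} (hLG : L ≤ G)
    (hL : Inv A L) {a : Γ} (ha : a ∈ A) :
    (Fx L a).map (QuotientGroup.mk' N) = Fx (L.map (QuotientGroup.mk' N)) (QuotientGroup.mk' N a) := by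
  classical
  apply le_antisymm
  · rintro _ ⟨x, ⟨hxL, hxa⟩, rfl⟩
    refine ⟨⟨x, hxL, rfl⟩, ?_⟩
    change _ ∈ centralizer _ at hxa ⊢
    rw [mem_centralizer_singleton_iff] at hxa ⊢
    simp only [← map_mul, hxa]
  · rintro y ⟨⟨l, hlL, rfl⟩, hla⟩
    change _ ∈ centralizer _ at hla
    rw [mem_centralizer_singleton_iff] at hla
    have hza : zpowers a ≤ A := by
      rw [zpowers_le]; exact ha
    have hLN : L ≤ normalizer ((L ⊓ N : Subgroup Γ) : Set Γ) := by
      intro x hx
      rw [mem_normalizer_iff]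
      intro y
      constructor
      · rintro ⟨h1, h2⟩
        exact ⟨L.mul_mem (L.mul_mem hx h1) (L.inv_mem hx), (inferInstance : N.Normal).conj_mem _ h2 _⟩
      · rintro ⟨h1, h2⟩
        refine ⟨?_, ?_⟩
        · have := L.mul_mem (L.mul_mem (L.inv_mem hx) h1) hx
          simpa [mul_assoc] using this
        · have := (inferInstance : N.Normal).conj_mem _ h2 x⁻¹
          simpa [mul_assoc] using this
    have hAN : zpowers a ≤ normalizer ((L ⊓ N : Subgroup Γ) : Set Γ) := by
      intro x hx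
      rw [mem_normalizer_iff]
      have hxA := hza hx
      intro y
      constructor
      · rintro ⟨h1, h2⟩
        exact ⟨conj_mem_of_inv hL hxA h1, (inferInstance : N.Normal).conj_mem _ h2 _⟩
      · rintro ⟨h1, h2⟩
        refine ⟨?_, ?_⟩
        · have := conj_mem_of_inv hL (A.inv_mem hxA) h1
          simpa [mul_assoc] using this
        · have := (inferInstance : N.Normal).conj_mem _ h2 x⁻¹
          simpa [mul_assoc] using this
    have hcop : (Nat.card (zpowers a)).Coprime (Nat.card L) :=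
      Nat.Coprime.coprime_dvd_right (Subgroup.card_dvd_of_le hLG) (h.copZ ha)
    have hab : Group.IsSolvable (zpowers a) := inferInstance
    obtain ⟨c, hc, hc2⟩ := Cfsg.Agent.Lib.Coprime.Action.exists_fixed_of_fixed_mod
      (K := L) (A := zpowers a) (L ⊓ N) (hza.trans hL) hcop (Or.inl hab) inf_le_left hLN hAN hlL (by
        intro x hx
        obtain ⟨n, rfl⟩ := mem_zpowers_iff.mp hx
        refine ⟨?_, ?_⟩
        · exact L.mul_mem (conj_mem_of_inv hL (hza hx) hlL) (L.inv_mem hlL)
        · have hcomm : QuotientGroup.mk' N (a ^ n) * QuotientGroup.mk' N l = QuotientGroup.mk' N l * QuotientGroup.mk' N (a ^ n) := by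
            rw [map_zpow]
            have : Commute (QuotientGroup.mk' N a) (QuotientGroup.mk' N l) := hla.symm
            exact (this.zpow_left n).eq
          have : QuotientGroup.mk' N (a ^ n * l * (a ^ n)⁻¹ * l⁻¹) = 1 := by
            simp only [map_mul, map_inv, hcomm]
            group
          rwa [← MonoidHom.mem_ker, QuotientGroup.ker_mk'] at this)
    refine ⟨c, ⟨hc.1, ?_⟩, ?_⟩
    · change _ ∈ centralizer _
      rw [mem_centralizer_singleton_iff]
      have := (mem_centralizer_iff.mp hc.2) a (mem_zpowers a)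
      exact this.symm
    · have h2 := hc2.2
      have : QuotientGroup.mk' N (l⁻¹ * c) = 1 := by
        rw [← MonoidHom.mem_ker, QuotientGroup.ker_mk']; exact h2
      rw [map_mul, map_inv, inv_mul_eq_one] at this
      exact this.symm

private theorem inj_on_A (h : BaseNT G A q) (N : Subgroup Γ) [N.Normal] (hNG : N ≤ G) {x : Γ} (hx : x ∈ A)
    (hxN : x ∈ N) : x = 1 := by
  have hd : A ⊓ N = ⊥ := (Subgroup.disjoint_of_coprime_natCard
    (Nat.Coprime.coprime_dvd_right (Subgroup.card_dvd_of_le hNG) h.copA)).eq_bot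
  have : x ∈ A ⊓ N := ⟨hx, hxN⟩
  rwa [hd, mem_bot] at this

private noncomputable def quotEquiv (h : BaseNT G A q) (N : Subgroup Γ) [N.Normal] (hNG : N ≤ G) :
    A ≃* (A.map (QuotientGroup.mk' N)) :=
  MulEquiv.ofBijective ((QuotientGroup.mk' N).subgroupMap A) (by
    constructor
    · rw [injective_iff_map_eq_one]
      rintro ⟨x, hx⟩ hx1
      have : QuotientGroup.mk' N x = 1 := congrArg Subtype.val hx1
      rw [← MonoidHom.mem_ker, QuotientGroup.ker_mk'] at this
      exact Subtype.ext (inj_on_A h N hNG hx this)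
    · exact MonoidHom.subgroupMap_surjective _ _)

theorem BaseNT.quot (h : BaseNT G A q) (N : Subgroup Γ) [N.Normal] (hNG : N ≤ G) :
    BaseNT (G.map (QuotientGroup.mk' N)) (A.map (QuotientGroup.mk' N)) q := by
  classical
  have hfin : Finite (Γ ⧸ N) := inferInstance
  refine ⟨h.hq, ?_, ?_, ?_, ?_, ?_⟩
  · rw [← Nat.card_congr (quotEquiv h N hNG).toEquiv]; exact h.cardA
  · intro hc
    exact h.ncA (isCyclic_of_surjective (quotEquiv h N hNG).symm (quotEquiv h N hNG).symm.surjective)
  · apply inv_of_conj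
    rintro _ ⟨a, ha, rfl⟩ _ ⟨x, hx, rfl⟩
    exact ⟨a * x * a⁻¹, conj_mem_of_inv h.inv ha hx, by simp⟩
  · intro hd
    exact h.cop (hd.trans (Subgroup.card_map_dvd _ _))
  · rintro _ ⟨a, ha, rfl⟩ ha1 x hx y hy
    have hfx := fx_map_mk h N hNG (le_refl G) h.inv ha
    rw [← hfx] at hx hy
    obtain ⟨x', hx', rfl⟩ := hx
    obtain ⟨y', hy', rfl⟩ := hy
    have ha1' : a ≠ 1 := by
      rintro rfl
      exact ha1 (map_one _)
    rw [← map_mul, ← map_mul, h.abel a ha ha1' x' hx' y' hy']

theorem Base.quot (h : Base G A q) (N : Subgroup Γ) [N.Normal] (hNG : N ≤ G) :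
    Base (G.map (QuotientGroup.mk' N)) (A.map (QuotientGroup.mk' N)) q := by
  classical
  refine ⟨h.toBaseNT.quot N hNG, ?_⟩
  rw [eq_bot_iff]
  rintro y ⟨⟨l, hl, rfl⟩, hlA⟩
  have hNinv : A ≤ normalizer (N : Set Γ) := by
    intro x _
    rw [mem_normalizer_iff]
    intro y
    exact ((inferInstance : N.Normal).mem_comm_iff (a := x * y) (b := x⁻¹)) |> fun _ => by
      constructor
      · intro hy; exact (inferInstance : N.Normal).conj_mem _ hy _
      · intro hy
        have := (inferInstance : N.Normal).conj_mem _ hy x⁻¹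
        simpa [mul_assoc] using this
  have hGN : G ≤ normalizer (N : Set Γ) := by
    intro x _
    rw [mem_normalizer_iff]
    intro y
    constructor
    · intro hy; exact (inferInstance : N.Normal).conj_mem _ hy _
    · intro hy
      have := (inferInstance : N.Normal).conj_mem _ hy x⁻¹
      simpa [mul_assoc] using this
  have hsol : Group.IsSolvable A := h.toBaseNT.isSolvable_A
  obtain ⟨c, hc, hc2⟩ := Cfsg.Agent.Lib.Coprime.Action.exists_fixed_of_fixed_mod
      (K := G) (A := A) N h.inv h.toBaseNT.copA (Or.inl hsol) hNG hGN hNinv hl (by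
    intro a ha
    have hcm := (mem_centralizer_iff.mp hlA) (QuotientGroup.mk' N a) ⟨a, ha, rfl⟩
    have : QuotientGroup.mk' N (a * l * a⁻¹ * l⁻¹) = 1 := by
      simp only [map_mul, map_inv]
      rw [hcm]
      group
    rwa [← MonoidHom.mem_ker, QuotientGroup.ker_mk'] at this)
  have hc1 : c = 1 := by
    have : c ∈ G ⊓ centralizer (A : Set Γ) := hc
    rw [h.triv, mem_bot] at this
    exact this
  subst hc1
  rw [mul_one] at hc2
  have : QuotientGroup.mk' N l⁻¹ = 1 := by
    rw [← MonoidHom.mem_ker, QuotientGroup.ker_mk']; exact hc2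
  rw [map_inv, inv_eq_one] at this
  rw [mem_bot]
  exact this

/-- The ambient group can be cut down to `G ⊔ A`. -/
theorem BaseNT.restrict (h : BaseNT G A q) :
    BaseNT (G.subgroupOf (G ⊔ A)) (A.subgroupOf (G ⊔ A)) q := by
  classical
  have eA : A.subgroupOf (G ⊔ A) ≃* A := Subgroup.subgroupOfEquivOfLe le_sup_right
  have eG : G.subgroupOf (G ⊔ A) ≃* G := Subgroup.subgroupOfEquivOfLe le_sup_left
  refine ⟨h.hq, ?_, ?_, ?_, ?_, ?_⟩
  · rw [Nat.card_congr eA.toEquiv]; exact h.cardA
  · intro hc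
    exact h.ncA (isCyclic_of_surjective eA eA.surjective)
  · rintro ⟨a, ha'⟩ ha
    rw [mem_normalizer_iff]
    rintro ⟨x, hx'⟩
    have ha2 : a ∈ A := ha
    simp only [SetLike.mem_coe, mem_subgroupOf, Subgroup.coe_mul, InvMemClass.coe_inv]
    exact mem_normalizer_iff.mp (h.inv ha2) x
  · rw [Nat.card_congr eG.toEquiv]; exact h.cop
  · rintro ⟨a, ha'⟩ ha ha1 ⟨x, hx'⟩ ⟨hx, hxa⟩ ⟨y, hy'⟩ ⟨hy, hya⟩
    have ha2 : a ∈ A := ha
    have ha3 : a ≠ 1 := fun h1 => ha1 (Subtype.ext h1)
    apply Subtype.ext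
    apply h.abel a ha2 ha3
    · refine ⟨hx, ?_⟩
      change _ ∈ centralizer _ at hxa ⊢
      rw [mem_centralizer_singleton_iff] at hxa ⊢
      exact congrArg Subtype.val hxa
    · refine ⟨hy, ?_⟩
      change _ ∈ centralizer _ at hya ⊢
      rw [mem_centralizer_singleton_iff] at hya ⊢
      exact congrArg Subtype.val hya

theorem Base.restrict (h : Base G A q) :
    Base (G.subgroupOf (G ⊔ A)) (A.subgroupOf (G ⊔ A)) q := by
  classical
  refine ⟨h.toBaseNT.restrict, ?_⟩
  rw [eq_bot_iff]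
  rintro ⟨x, hx'⟩ ⟨hx, hxA⟩
  have : x ∈ G ⊓ centralizer (A : Set Γ) := by
    refine ⟨hx, ?_⟩
    change _ ∈ centralizer _ at hxA ⊢
    rw [mem_centralizer_iff] at hxA ⊢
    intro a ha
    have := hxA ⟨a, (le_sup_right : A ≤ G ⊔ A) ha⟩ ha
    exact congrArg Subtype.val this
  rw [h.triv, mem_bot] at this
  rw [mem_bot]
  exact Subtype.ext this

/-- A subgroup inherits the hypotheses. -/
theorem BaseNT.mono (h : BaseNT G A q) {L : Subgroup Γ} (hLG : L ≤ G) (hL : Inv A L) : BaseNT L A q := by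
  refine ⟨h.hq, h.cardA, h.ncA, hL, ?_, ?_⟩
  · intro hd
    exact h.cop (hd.trans (Subgroup.card_dvd_of_le hLG))
  · intro a ha ha1 x hx y hy
    exact h.abel a ha ha1 x ⟨hLG hx.1, hx.2⟩ y ⟨hLG hy.1, hy.2⟩

theorem Base.mono (h : Base G A q) {L : Subgroup Γ} (hLG : L ≤ G) (hL : Inv A L) : Base L A q := by
  refine ⟨h.toBaseNT.mono hLG hL, ?_⟩
  rw [eq_bot_iff]
  rintro x ⟨hx, hxA⟩
  have : x ∈ G ⊓ centralizer (A : Set Γ) := ⟨hLG hx, hxA⟩
  rwa [h.triv] at this

end Cfsg.Agent.Lib.FpfPP
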