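/- The chief factor lemma and nilpotency of the derived subgroup. -/
import Cfsg.Agent.Lib.FpfPP.Core
import Cfsg.Agent.Lib.FpfPP.Quot

set_option autoImplicit false

namespace Cfsg.Agent.Lib.FpfPP

open Subgroup
open scoped commutatorElement

universe u v

/-- `V` is a minimal normal subgroup of `Γ` inside `Y`. -/
structure MinN {Γ : Type u} [Group Γ] (Y V : Subgroup Γ) : Prop where
  le : V ≤ Y
  nrm : V.Normal
  ne : V ≠ ⊥
  min : ∀ V₁ : Subgroup Γ, V₁.Normal → V₁ ≤ V → V₁ = ⊥ ∨ V₁ = V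

/-- A minimal normal subgroup of `Γ` inside the solvable `Y` is an abelian `s`-group. -/
theorem MinN.exists_prime {Γ : Type u} [Group Γ] [Finite Γ] {Y V : Subgroup Γ} (hV : MinN Y V)
    (hY : Group.IsSolvable Y) :
    (∀ x ∈ V, ∀ y ∈ V, x * y = y * x) ∧ ∃ s : ℕ, s.Prime ∧ IsPGroup s V := by
  haveI hVn := hV.nrm
  -- `V` is solvable
  haveI hVs : Group.IsSolvable V :=
    solvable_of_solvable_injective (f := (Subgroup.inclusion hV.le))
      (Subgroup.inclusion_injective hV.le)
  -- abelian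
  have hcomm : ⁅V, V⁆ = ⊥ := by
    rcases hV.min ⁅V, V⁆ inferInstance (commutator_le_self V) with h | h
    · exact h
    · exfalso
      haveI : Nontrivial V := by
        rw [Subgroup.nontrivial_iff_ne_bot]
        exact hV.ne
      have h1 := Group.IsSolvable.commutator_lt_top_of_nontrivial (G := V)
      have h2 : commutator V = ⊤ := by
        apply Subgroup.map_injective V.subtype_injective
        rw [Subgroup.map_subtype_commutator, h, ← MonoidHom.range_eq_map, Subgroup.range_subtype]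
      rw [h2] at h1
      exact lt_irrefl _ h1
  have hab : ∀ x ∈ V, ∀ y ∈ V, x * y = y * x := by
    intro x hx y hy
    have : ⁅x, y⁆ ∈ ⁅V, V⁆ := commutator_mem_commutator hx hy
    rw [hcomm, mem_bot] at this
    exact commutatorElement_eq_one_iff_mul_comm.mp this
  refine ⟨hab, ?_⟩
  -- a prime dividing the order
  have hVne : Nat.card V ≠ 1 := by
    intro h
    apply hV.ne
    exact (Subgroup.eq_bot_iff_card V).mpr h
  obtain ⟨s, hs, hsd⟩ := Nat.exists_prime_and_dvd hVne
  haveI := Fact.mk hs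
  obtain ⟨x, hx⟩ := exists_prime_orderOf_dvd_card' s hsd
  let V₁ : Subgroup Γ :=
    { carrier := {g | g ∈ V ∧ g ^ s = 1}
      one_mem' := ⟨V.one_mem, one_pow _⟩
      mul_mem' := by
        rintro a b ⟨ha, ha'⟩ ⟨hb, hb'⟩
        refine ⟨V.mul_mem ha hb, ?_⟩
        rw [(show Commute a b from hab a ha b hb).mul_pow, ha', hb', one_mul]
      inv_mem' := by
        rintro a ⟨ha, ha'⟩
        exact ⟨V.inv_mem ha, by rw [inv_pow, ha', inv_one]⟩ }
  have hV₁n : V₁.Normal := by
    constructor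
    rintro a ⟨ha, ha'⟩ g
    refine ⟨hVn.conj_mem a ha g, ?_⟩
    rw [conj_pow, ha']
    simp
  have hx1 : (x : Γ) ∈ V₁ := by
    refine ⟨x.2, ?_⟩
    have := pow_orderOf_eq_one x
    rw [hx] at this
    have h2 := congrArg Subtype.val this
    simpa using h2
  have hxne : (x : Γ) ≠ 1 := by
    intro h
    have : x = 1 := Subtype.ext h
    rw [this, orderOf_one] at hx
    exact hs.one_lt.ne hx
  have hle : V₁ ≤ V := fun a ha => ha.1
  rcases hV.min V₁ hV₁n hle with h | h
  · rw [h, mem_bot] at hx1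
    exact absurd hx1 hxne
  · refine ⟨s, hs, ?_⟩
    intro g
    refine ⟨1, ?_⟩
    have hgV : V ≤ V₁ := h.ge
    have : (g : Γ) ∈ V₁ := hgV g.2
    rw [pow_one]
    exact Subtype.ext this.2

/-- Existence of a minimal normal subgroup inside a nontrivial normal subgroup. -/
theorem exists_minN {Γ : Type u} [Group Γ] [Finite Γ] {Y : Subgroup Γ} (hY : Y.Normal) (hne : Y ≠ ⊥) :
    ∃ V, MinN Y V := by
  let F : Set (Subgroup Γ) := {V | V.Normal ∧ V ≠ ⊥ ∧ V ≤ Y}
  have hF : F.Nonempty := ⟨Y, hY, hne, le_refl _⟩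
  obtain ⟨V, hV⟩ := (Set.toFinite F).exists_minimal hF
  refine ⟨V, hV.1.2.2, hV.1.1, hV.1.2.1, ?_⟩
  intro V₁ hV₁ hle
  by_cases h : V₁ = ⊥
  · exact Or.inl h
  · right
    exact le_antisymm hle (hV.2 ⟨hV₁, h, hle.trans hV.1.2.2⟩ hle)

section Abs

open Cfsg.Agent.Lib.Coprime.Action

variable {Γ : Type u} [Group Γ] [Finite Γ] {Y A T : Subgroup Γ} {q : ℕ}
variable {V : Type v} [CommGroup V] [Finite V]

/-- The abstract setting of the two cases of the chief factor lemma. -/
structure ChiefAbs (Y A T : Subgroup Γ) (q : ℕ) (ρ : Γ →* MulAut V) : Prop where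
  base : Base Y A q
  nY : Y.Normal
  top : Y ⊔ A = ⊤
  TY : T ≤ Y
  nT : T.Normal
  Tc : ∀ x ∈ T, ∀ y ∈ T, x * y = y * x
  faith : ∀ y ∈ Y, ρ y = 1 → y = 1
  cop : (Nat.card T).Coprime (Nat.card V)
  hq : ¬ q ∣ Nat.card V
  fix : ∀ v : V, (∀ t ∈ T, ρ t v = v) → v = 1
  star : ∀ a ∈ A, a ≠ 1 → ∀ y ∈ Fx Y a, ∀ v : V, ρ a v = v → ρ y v = v

theorem conj_comm_mem_iff (D : Subgroup Γ) [D.Normal] (a y : Γ) :
    a * y * a⁻¹ * y⁻¹ ∈ D ↔ ((a : Γ ⧸ D) * (y : Γ ⧸ D) = (y : Γ ⧸ D) * (a : Γ ⧸ D)) := by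
  rw [← QuotientGroup.eq_one_iff]
  simp only [QuotientGroup.mk_mul, QuotientGroup.mk_inv]
  rw [mul_inv_eq_one, mul_inv_eq_iff_eq_mul]

theorem comm_mem_of_normal {Y : Subgroup Γ} (hYn : Y.Normal) {y : Γ} (g : Γ) (hy : y ∈ Y) : ⁅y, g⁆ ∈ Y := by
  rw [commutatorElement_def, mul_assoc, mul_assoc, ← mul_assoc g]
  exact Y.mul_mem hy (hYn.conj_mem _ (Y.inv_mem hy) g)

theorem inv_of_normal {A Y : Subgroup Γ} (hYn : Y.Normal) : Inv A Y := by
  intro a _
  rw [normalizer_eq_top_iff.mpr hYn]
  exact mem_top _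

/-- Case 2 reduces to Case 1. -/
theorem ChiefAbs.two_to_one {ρ : Γ →* MulAut V} (H : ChiefAbs Y A T q ρ)
    (hab : ∀ x ∈ Y, ∀ y ∈ Y, ⁅x, y⁆ ∈ centralizer (T : Set Γ))
    {b : Γ} (hb : b ∈ A) (hb1 : b ≠ 1) (hbY : ∀ y ∈ Y, ⁅y, b⁆ ∈ centralizer (T : Set Γ)) :
    Y ≤ centralizer (T : Set Γ) := by
  classical
  haveI hYn := H.nY
  haveI hTn := H.nT
  have hBN : BaseNT Y A q := H.base.toBaseNT
  have hYinv : Inv A Y := inv_of_normal hYn
  have hTinv : Inv A T := inv_of_normal hTn
  -- the subgroup `D`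
  set D : Subgroup Γ := Y ⊓ centralizer (T : Set Γ) with hD
  haveI hDn : D.Normal := inferInstance
  have hbD : ∀ y ∈ Y, b * y * b⁻¹ * y⁻¹ ∈ D := by
    intro y hy
    have h2 : ⁅y, b⁆ ∈ D := ⟨comm_mem_of_normal hYn b hy, hbY y hy⟩
    have h3 := D.inv_mem h2
    rwa [commutatorElement_inv, commutatorElement_def] at h3
  -- decomposition `Y = C_Y(b) D`
  have decomp : ∀ y ∈ Y, ∃ e ∈ Fx Y b, y⁻¹ * e ∈ D := by
    intro y hy
    have hfix : ∀ a ∈ zpowers b, a * y * a⁻¹ * y⁻¹ ∈ D := by
      intro a ha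
      obtain ⟨n, rfl⟩ := mem_zpowers_iff.mp ha
      rw [conj_comm_mem_iff, QuotientGroup.mk_zpow]
      exact ((show Commute (b : Γ ⧸ D) (y : Γ ⧸ D) from (conj_comm_mem_iff D b y).mp (hbD y hy))).zpow_left n
    obtain ⟨c, hc, hc'⟩ := exists_fixed_of_fixed_mod (A := zpowers b) (K := Y) D
      (inv_of_normal hYn) (hBN.copZ hb) (Or.inl inferInstance) inf_le_left
      (by rw [normalizer_eq_top_iff.mpr hDn]; exact le_top)
      (by rw [normalizer_eq_top_iff.mpr hDn]; exact le_top) hy hfix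
    refine ⟨c, ⟨hc.1, ?_⟩, hc'⟩
    exact centralizer_le (Set.singleton_subset_iff.mpr (mem_zpowers b)) hc.2
  have hDT : ∀ d ∈ D, ∀ t ∈ T, d * t = t * d := fun d hd t ht => (mem_centralizer_iff.mp hd.2 t ht).symm
  have main : ∀ a ∈ A, a ≠ 1 → ∀ y ∈ Y, ∀ t ∈ Fx T a, y * t = t * y := by
    intro a ha ha1 y hy t ht
    by_cases hab' : a ∈ zpowers b
    · -- same line
      have he : Fx T a = Fx T b := hBN.fx_congr T hb hb1 hab' ha1
      obtain ⟨e, he1, he2⟩ := decomp y hy
      have ht' : t ∈ Fx T b := he ▸ ht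
      have ht'' : t ∈ Fx Y b := ⟨H.TY ht'.1, ht'.2⟩
      have h1 : e * t = t * e := hBN.comm_fx le_rfl hb hb1 he1 ht''
      have h2 := hDT _ (D.inv_mem he2) t ht.1
      have hye : y = e * (y⁻¹ * e)⁻¹ := by group
      rw [hye, mul_assoc, h2, ← mul_assoc, h1, mul_assoc]
    · -- different line
      have hFinv : Inv A (Fx T a) := hBN.inv_fx hTinv ha
      set S : Subgroup Γ := Y ⊓ centralizer (Fx T a : Set Γ) with hS
      have hDS : D ≤ S := inf_le_inf_left _ (centralizer_le inf_le_left)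
      have hSY : Y ≤ normalizer (S : Set Γ) := by
        apply inv_of_conj
        intro u hu x hx
        have h1 : ⁅u, x⁆ ∈ D := ⟨comm_mem_of_normal hYn x hu, hab u hu x hx.1⟩
        have h2 : u * x * u⁻¹ = ⁅u, x⁆ * x := by
          rw [commutatorElement_def]; group
        rw [h2]
        exact S.mul_mem (hDS h1) hx
      have hSA : Inv A S := Inv.inf hYinv (Inv.centralizer hFinv)
      have hSnorm : S.Normal := by
        rw [← normalizer_eq_top_iff, ← top_le_iff, ← H.top]
        exact sup_le hSY hSA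
      haveI := hSnorm
      -- `e` in `C_Y(b)` acts trivially on `Fx T a`, modulo
      have hfe : ∀ e ∈ Fx Y b, a * e * a⁻¹ * e⁻¹ ∈ S := by
        intro e he
        refine Subgroup.mem_inf.mpr ⟨?_, ?_⟩
        · exact Y.mul_mem (hYn.conj_mem e he.1 a) (Y.inv_mem he.1)
        · rw [mem_centralizer_iff]
          intro t ht
          have he' : e⁻¹ ∈ Fx Y b := (Fx Y b).inv_mem he
          have hc : e⁻¹ * t * e⁻¹⁻¹ ∈ Fx T a := by
            refine core_two H.base ρ H.TY H.Tc hTinv (fun t ht => H.faith t (H.TY ht)) H.cop H.hq H.fix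
              (fun a' ha' ha1' t' ht' v hv => H.star a' ha' ha1' t' ⟨H.TY ht'.1, ht'.2⟩ v hv)
              (e := e⁻¹) (b := b) (by rw [normalizer_eq_top_iff.mpr hTn]; exact mem_top _) hb hb1
              (mem_centralizer_singleton_iff.mp he'.2)
              (fun v hv => H.star b hb hb1 _ he' v hv) ha ha1 ht
          rw [inv_inv] at hc
          set t2 := e⁻¹ * t * e with ht2
          have h1 : e⁻¹ * t = t2 * e⁻¹ := by rw [ht2]; group
          have h3 : e * t2 = t * e := by rw [ht2]; group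
          have h2' : t2 * a = a * t2 := mem_centralizer_singleton_iff.mp hc.2
          have h2 : a⁻¹ * t2 = t2 * a⁻¹ := by
            rw [eq_mul_inv_iff_mul_eq, mul_assoc, h2', inv_mul_cancel_left]
          have h4 : t * a = a * t := mem_centralizer_singleton_iff.mp ht.2
          calc t * (a * e * a⁻¹ * e⁻¹) = (t * a) * e * a⁻¹ * e⁻¹ := by group
            _ = a * (t * e) * a⁻¹ * e⁻¹ := by rw [h4]; group
            _ = a * (e * t2) * a⁻¹ * e⁻¹ := by rw [h3]
            _ = a * e * (t2 * a⁻¹) * e⁻¹ := by group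
            _ = a * e * a⁻¹ * (t2 * e⁻¹) := by rw [← h2]; group
            _ = a * e * a⁻¹ * (e⁻¹ * t) := by rw [h1]
            _ = a * e * a⁻¹ * e⁻¹ * t := by group
      -- `a` and `b` act trivially on `Y/S`
      have haS : ∀ k ∈ Y, (a : Γ ⧸ S) * (k : Γ ⧸ S) = (k : Γ ⧸ S) * (a : Γ ⧸ S) := by
        intro k hk
        obtain ⟨e, he1, he2⟩ := decomp k hk
        have h1 : (k : Γ ⧸ S) = (e : Γ ⧸ S) := QuotientGroup.eq.mpr (hDS he2)
        rw [h1]
        exact (conj_comm_mem_iff S a e).mp (hfe e he1)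
      have hbS : ∀ k ∈ Y, (b : Γ ⧸ S) * (k : Γ ⧸ S) = (k : Γ ⧸ S) * (b : Γ ⧸ S) := fun k hk =>
        (conj_comm_mem_iff S b k).mp (hDS (hbD k hk))
      have hAS : ∀ c ∈ A, ∀ k ∈ Y, (c : Γ ⧸ S) * (k : Γ ⧸ S) = (k : Γ ⧸ S) * (c : Γ ⧸ S) := by
        let B : Subgroup Γ := (centralizer ((Y.map (QuotientGroup.mk' S) : Subgroup (Γ ⧸ S)) : Set (Γ ⧸ S))).comap (QuotientGroup.mk' S)
        have hB : ∀ c, c ∈ B ↔ ∀ k ∈ Y, (c : Γ ⧸ S) * (k : Γ ⧸ S) = (k : Γ ⧸ S) * (c : Γ ⧸ S) := by
          intro c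
          simp only [B, mem_comap, mem_centralizer_iff, Subgroup.coe_map, Set.mem_image, SetLike.mem_coe,
            forall_exists_index, and_imp, forall_apply_eq_imp_iff₂]
          constructor
          · intro h k hk; exact (h k hk).symm
          · intro h k hk; exact (h k hk).symm
        have hAB : A ≤ B := by
          rw [← hBN.sup_zpowers hb hb1 ha hab']
          exact sup_le ((zpowers_le).mpr ((hB b).mpr hbS)) ((zpowers_le).mpr ((hB a).mpr haS))
        intro c hc
        exact (hB c).mp (hAB hc)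
      obtain ⟨c, hc, hc'⟩ := exists_fixed_of_fixed_mod (A := A) (K := Y) S
        hYinv hBN.copA (Or.inl hBN.isSolvable_A) inf_le_left hSY hSA hy
        (fun c hcA => (conj_comm_mem_iff S c y).mpr (hAS c hcA y hy))
      have hc1 : c = 1 := by
        have := H.base.triv
        have h2 : c ∈ Y ⊓ centralizer (A : Set Γ) := hc
        rw [this, mem_bot] at h2
        exact h2
      rw [hc1, mul_one] at hc'
      have hyS : y ∈ S := by simpa using S.inv_mem hc'
      exact (mem_centralizer_iff.mp hyS.2 t ht).symm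
  have hle : T ≤ centralizer (Y : Set Γ) := by
    have hgen := hBN.gen H.TY hTinv
    calc T = ⨆ a ∈ Sharp A, Fx T a := hgen.symm
      _ ≤ _ := by
        refine iSup₂_le ?_
        intro a ha t ht
        rw [mem_centralizer_iff]
        intro y hy
        exact main a ha.1 ha.2 y hy t ht
  rw [le_centralizer_iff]
  exact hle

/-- Case 1 gives the conclusion. -/
theorem ChiefAbs.one_to_end {ρ : Γ →* MulAut V} (H : ChiefAbs Y A T q ρ)
    (hY : Y ≤ centralizer (T : Set Γ)) (hne : T ≠ ⊥)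
    (hmin : ∀ T₁ : Subgroup Γ, T₁.Normal → T₁ ≤ T → T₁ = ⊥ ∨ T₁ = T) :
    ∃ j ∈ A, j ≠ 1 ∧ (∀ y ∈ Y, y * j = j * y) ∧ ∀ x ∈ Y, ∀ y ∈ Y, x * y = y * x := by
  classical
  haveI hYn := H.nY
  haveI hTn := H.nT
  have hBN : BaseNT Y A q := H.base.toBaseNT
  have hYinv : Inv A Y := inv_of_normal hYn
  have hTinv : Inv A T := inv_of_normal hTn
  have hFn : ∀ a ∈ A, (Fx T a).Normal := by
    intro a ha
    rw [← normalizer_eq_top_iff, ← top_le_iff, ← H.top]
    refine sup_le ?_ (hBN.inv_fx hTinv ha)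
    apply inv_of_conj
    intro y hy t ht
    have h1 : y * t = t * y := (mem_centralizer_iff.mp (hY hy) t ht.1).symm
    rw [h1, mul_inv_cancel_right]
    exact ht
  obtain ⟨j, hj, hj1, hjT⟩ : ∃ j ∈ A, j ≠ 1 ∧ Fx T j = T := by
    by_contra hcon
    push_neg at hcon
    apply hne
    have hgen := hBN.gen H.TY hTinv
    rw [← hgen, eq_bot_iff]
    refine iSup₂_le ?_
    intro a ha
    rcases hmin _ (hFn a ha.1) inf_le_left with h | h
    · exact h.le
    · exact absurd h (hcon a ha.1 ha.2)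
  have hi : ∀ i ∈ A, i ∉ zpowers j → Fx T i = ⊥ := by
    intro i hiA hij
    have := H.base.fx_inf H.TY hj hj1 hiA hij
    rw [hjT, inf_eq_right.mpr inf_le_left] at this
    exact this
  have hYi : ∀ i ∈ A, i ∉ zpowers j → Fx Y i = ⊥ := by
    intro i hiA hij
    have hi1 : i ≠ 1 := fun h => hij (h ▸ one_mem _)
    rw [eq_bot_iff]
    intro e he
    rw [mem_bot]
    have hcl := core_kl (V := V) hBN.hq ρ H.Tc (x := i)
      (by rw [normalizer_eq_top_iff.mpr hTn]; exact mem_top _) (hBN.pow_q hiA) (hi i hiA hij) H.cop ⊤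
      (fun _ _ _ _ => mem_top _) (fun _ _ => mem_top _) (fun u _ hu => H.fix u hu)
    apply H.faith e he.1
    ext v
    have hv : v ∈ closure {g | ∃ t ∈ T, ∃ c ∈ (⊤ : Subgroup V), ρ i c = c ∧ g = ρ t c} := hcl (mem_top v)
    show ρ e v = v
    induction hv using closure_induction with
    | mem x hx =>
      obtain ⟨t, ht, c, -, hc, rfl⟩ := hx
      have h1 : e * t = t * e := (mem_centralizer_iff.mp (hY he.1) t ht).symm
      have h2 : ρ e c = c := H.star i hiA hi1 e he c hc
      have h3 : ρ e (ρ t c) = ρ (e * t) c := by rw [map_mul]; rfl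
      rw [h3, h1, map_mul]
      show ρ t (ρ e c) = ρ t c
      rw [h2]
    | one => exact map_one _
    | mul x y _ _ hx hy => rw [map_mul, hx, hy]
    | inv x _ hx => rw [map_inv, hx]
  have hYj : Y ≤ Fx Y j := by
    have hgen := hBN.gen (le_refl Y) hYinv
    calc Y = ⨆ a ∈ Sharp A, Fx Y a := hgen.symm
      _ ≤ _ := by
        refine iSup₂_le ?_
        intro a ha
        by_cases h : a ∈ zpowers j
        · exact (hBN.fx_congr Y hj hj1 h ha.2).le
        · rw [hYi a ha.1 h]; exact bot_le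
  refine ⟨j, hj, hj1, ?_, ?_⟩
  · intro y hy
    exact mem_centralizer_singleton_iff.mp (hYj hy).2
  · intro x hx y hy
    exact hBN.comm_fx le_rfl hj hj1 (hYj hx) (hYj hy)

end Abs

/-- **The chief factor lemma.**  If `Y` does not centralize the minimal normal `V`, then `Y/C_Y(V)` is abelian and
centralized by some `a ∈ A^#`. -/
theorem chief {q : ℕ} (n : ℕ) : ∀ (Γ : Type u) [Group Γ] [Finite Γ] (Y A : Subgroup Γ), Y.Normal → Y ⊔ A = ⊤ →
    Base Y A q → Group.IsSolvable Y → Nat.card Y ≤ n → ∀ V : Subgroup Γ, MinN Y V →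
    Y ≤ centralizer (V : Set Γ) ∨
    ((∀ x ∈ Y, ∀ y ∈ Y, ⁅x, y⁆ ∈ centralizer (V : Set Γ)) ∧
      ∃ a ∈ A, a ≠ 1 ∧ ∀ y ∈ Y, ⁅y, a⁆ ∈ centralizer (V : Set Γ)) := by
  induction n with
  | zero =>
    intro Γ _ _ Y A _ _ _ _ hcard
    have := Nat.card_pos (α := Y)
    omega
  | succ n ih =>
    intro Γ _ _ Y A hYn htop hB hS hcard V hV
    by_cases hYV : Y ≤ centralizer (V : Set Γ)
    · exact Or.inl hYV
    right
    obtain ⟨hVc, s, hs, hVp⟩ := hV.exists_prime hS
    haveI hVn := hV.nrm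
    haveI := hYn
    haveI := Fact.mk hs
    set C : Subgroup Γ := Y ⊓ centralizer (V : Set Γ) with hCdef
    haveI hCn : C.Normal := inferInstance
    have hCY : C ≤ Y := inf_le_left
    have hVC : V ≤ C := fun v hv => ⟨hV.le hv, mem_centralizer_iff.mpr fun w hw => hVc w hw v hv⟩
    have hBN : BaseNT Y A q := hB.toBaseNT
    -- the action on `V`
    letI cg : CommGroup V := { (inferInstance : Group V) with
      mul_comm := fun x y => Subtype.ext (hVc x x.2 y y.2) }
    let ρ₀ : Γ →* MulAut V := MulAut.conjNormal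
    have hρ₀ : ∀ (g : Γ) (v : V), ((ρ₀ g v : V) : Γ) = g * v * g⁻¹ := fun g v => MulAut.conjNormal_apply g v
    have hker : ∀ x ∈ C, x ∈ ρ₀.ker := by
      intro x hx
      rw [MonoidHom.mem_ker]
      ext v
      show ((ρ₀ x v : V) : Γ) = v
      rw [hρ₀]
      have : (v : Γ) * x = x * v := mem_centralizer_iff.mp hx.2 v v.2
      rw [← this, mul_inv_cancel_right]
    let ρ : Γ ⧸ C →* MulAut V := QuotientGroup.lift C ρ₀ hker
    have hρ : ∀ (g : Γ) (v : V), ((ρ (g : Γ ⧸ C) v : V) : Γ) = g * v * g⁻¹ := by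
      intro g v
      rw [← hρ₀]
      rfl
    -- the quotient
    let π : Γ →* Γ ⧸ C := QuotientGroup.mk' C
    have hπs : Function.Surjective π := QuotientGroup.mk'_surjective C
    have hπker : ∀ x, π x = 1 ↔ x ∈ C := fun x => QuotientGroup.eq_one_iff x
    let Y' : Subgroup (Γ ⧸ C) := Y.map π
    let A' : Subgroup (Γ ⧸ C) := A.map π
    have hB' : Base Y' A' q := hB.quot C hCY
    have hY'n : Y'.Normal := hYn.map π hπs
    have htop' : Y' ⊔ A' = ⊤ := by
      rw [← Subgroup.map_sup, htop, ← MonoidHom.range_eq_map, MonoidHom.range_eq_top.mpr hπs]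
    have hY's : Group.IsSolvable Y' :=
      solvable_of_surjective (π.subgroupMap_surjective Y)
    have hcard' : Nat.card Y' ≤ n := by
      by_contra hlt
      have hle : Nat.card Y ≤ Nat.card Y' := by omega
      have hbij := (π.subgroupMap_surjective Y).bijective_of_nat_card_le hle
      apply hV.ne
      rw [eq_bot_iff]
      intro v hv
      rw [mem_bot]
      have h1 : π.subgroupMap Y ⟨v, hV.le hv⟩ = π.subgroupMap Y 1 := by
        apply Subtype.ext
        show π v = π 1
        rw [map_one]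
        exact (hπker v).mpr (hVC hv)
      have h2 := hbij.1 h1
      exact congrArg Subtype.val h2
    have hY'ne : Y' ≠ ⊥ := by
      intro h
      apply hYV
      intro y hy
      have h1 : π y ∈ Y' := mem_map_of_mem π hy
      rw [h, mem_bot] at h1
      exact ((hπker y).mp h1).2
    obtain ⟨T, hT⟩ := exists_minN hY'n hY'ne
    obtain ⟨hTc, r, hr, hTp⟩ := hT.exists_prime hY's
    haveI hTn := hT.nrm
    haveI := Fact.mk hr
    -- faithfulness
    have hfaith : ∀ y ∈ Y', ρ y = 1 → y = 1 := by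
      rintro _ ⟨y, hy, rfl⟩ hρy
      refine (hπker y).mpr (Subgroup.mem_inf.mpr ⟨hy, ?_⟩)
      rw [mem_centralizer_iff]
      intro v hv
      have h1 := hρ y ⟨v, hv⟩
      rw [show ρ (y : Γ ⧸ C) = 1 from hρy] at h1
      have h2 : v = y * v * y⁻¹ := h1
      exact eq_mul_inv_iff_mul_eq.mp h2
    -- no fixed points
    have hfix : ∀ v : V, (∀ t ∈ T, ρ t v = v) → v = 1 := by
      let W : Subgroup Γ := T.comap π
      haveI hWn : W.Normal := hTn.comap π
      let X : Subgroup Γ := V ⊓ centralizer (W : Set Γ)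
      have hXn : X.Normal := inferInstance
      have hWX : ∀ (v : V), (∀ t ∈ T, ρ t v = v) → (v : Γ) ∈ X := by
        intro v hv
        refine Subgroup.mem_inf.mpr ⟨v.2, ?_⟩
        rw [mem_centralizer_iff]
        intro w hw
        have h1 := hρ w v
        rw [hv (w : Γ ⧸ C) hw] at h1
        exact (eq_mul_inv_iff_mul_eq.mp h1).symm
      rcases hV.min X hXn inf_le_left with h | h
      · intro v hv
        have := hWX v hv
        rw [h, mem_bot] at this
        exact Subtype.ext this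
      · exfalso
        apply hT.ne
        rw [eq_bot_iff]
        intro t ht
        rw [mem_bot]
        obtain ⟨y, hy, rfl⟩ := hT.le ht
        refine (hπker y).mpr (Subgroup.mem_inf.mpr ⟨hy, ?_⟩)
        rw [mem_centralizer_iff]
        intro v hv
        have h1 : v ∈ X := h ▸ hv
        have h2 : y ∈ W := ht
        exact (mem_centralizer_iff.mp (Subgroup.mem_inf.mp h1).2 y h2).symm
    -- primes differ
    have hrs : r ≠ s := by
      rintro rfl
      have hVne : Nontrivial V := by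
        rw [Subgroup.nontrivial_iff_ne_bot]
        exact hV.ne
      letI : MulAction T V := MulAction.compHom V (ρ.comp T.subtype)
      have hsm : ∀ (t : T) (v : V), t • v = ρ t v := fun t v => rfl
      have h1 : r ∣ Nat.card V := by
        rcases hVp.card_eq_or_dvd with h | h
        · exact absurd h (by simpa using Finite.one_lt_card (α := V) |>.ne')
        · exact h
      have h0 : (1 : V) ∈ MulAction.fixedPoints T V := by
        intro t
        rw [hsm]
        exact map_one _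
      obtain ⟨b, hb, hb1⟩ := hTp.exists_fixed_point_of_prime_dvd_card_of_fixed_point V h1 h0
      apply hb1
      refine (hfix b ?_).symm
      intro t ht
      exact hb ⟨t, ht⟩
    have hcop : (Nat.card T).Coprime (Nat.card V) :=
      IsPGroup.coprime_card_of_ne r s hrs T V hTp hVp
    have hqV : ¬ q ∣ Nat.card V := fun h =>
      hB.cop (h.trans (Subgroup.card_dvd_of_le hV.le))
    -- the star condition
    have hstar : ∀ a ∈ A', a ≠ 1 → ∀ y ∈ Fx Y' a, ∀ v : V, ρ a v = v → ρ y v = v := by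
      rintro _ ⟨a₀, ha₀, rfl⟩ ha1 y hy v hv
      have ha₀1 : a₀ ≠ 1 := by
        rintro rfl
        exact ha1 (map_one _)
      rw [← fx_map_mk hBN C hCY le_rfl (inv_of_normal hYn) ha₀] at hy
      obtain ⟨y₀, hy₀, rfl⟩ := hy
      have h1 := hρ a₀ v
      rw [show ρ (a₀ : Γ ⧸ C) v = v from hv] at h1
      have hvF : (v : Γ) ∈ Fx Y a₀ :=
        ⟨hV.le v.2, mem_centralizer_singleton_iff.mpr (eq_mul_inv_iff_mul_eq.mp h1)⟩
      have h2 : y₀ * v = v * y₀ := hBN.comm_fx le_rfl ha₀ ha₀1 hy₀ hvF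
      apply Subtype.ext
      have h3 := hρ y₀ v
      rw [h2, mul_inv_cancel_right] at h3
      exact h3
    have H : ChiefAbs Y' A' T q ρ :=
      { base := hB'
        nY := hY'n
        top := htop'
        TY := hT.le
        nT := hTn
        Tc := hTc
        faith := hfaith
        cop := hcop
        hq := hqV
        fix := hfix
        star := hstar }
    -- induction
    have hIH := ih (Γ ⧸ C) Y' A' hY'n htop' hB' hY's hcard' T hT
    have hcentral : Y' ≤ centralizer (T : Set (Γ ⧸ C)) := by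
      rcases hIH with h | ⟨h1, b, hb, hb1, h2⟩
      · exact h
      · exact H.two_to_one h1 hb hb1 h2
    obtain ⟨j, hj, hj1, hjY, hYab⟩ := H.one_to_end hcentral hT.ne hT.min
    obtain ⟨j₀, hj₀, rfl⟩ := hj
    have hcomm : ∀ x y : Γ, π x * π y = π y * π x → ⁅x, y⁆ ∈ C := by
      intro x y h
      rw [← hπker, commutatorElement_def, map_mul, map_mul, map_mul, map_inv, map_inv, h, mul_inv_cancel_right,
        mul_inv_cancel]
    refine ⟨?_, j₀, hj₀, ?_, ?_⟩
    · intro x hx y hy
      exact (hcomm x y (hYab _ (mem_map_of_mem π hx) _ (mem_map_of_mem π hy))).2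
    · rintro rfl
      exact hj1 (map_one _)
    · intro y hy
      exact (hcomm y j₀ (hjY _ (mem_map_of_mem π hy))).2

/-- The inductive form of the nilpotency of the derived subgroup. -/
theorem derived_nilp_aux {q : ℕ} (n : ℕ) : ∀ (Γ : Type u) [Group Γ] [Finite Γ] (L A : Subgroup Γ), L.Normal →
    L ⊔ A = ⊤ → Base L A q → Group.IsSolvable L → Nat.card L ≤ n → Group.IsNilpotent (⁅L, L⁆ : Subgroup Γ) := by
  induction n with
  | zero =>
    intro Γ _ _ L A _ _ _ _ hcard
    have := Nat.card_pos (α := L)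
    omega
  | succ n ih =>
    intro Γ _ _ L A hLn htop hB hS hcard
    by_cases hbot : L = ⊥
    · subst hbot
      rw [commutator_bot_left]
      infer_instance
    obtain ⟨V, hV⟩ := exists_minN hLn hbot
    haveI hVn := hV.nrm
    haveI := hLn
    have hchief : ∀ x ∈ L, ∀ y ∈ L, ⁅x, y⁆ ∈ centralizer (V : Set Γ) := by
      rcases chief _ Γ L A hLn htop hB hS le_rfl V hV with h | ⟨h, -⟩
      · intro x hx y hy
        exact (centralizer (V : Set Γ)).mul_mem
          ((centralizer (V : Set Γ)).mul_mem ((centralizer (V : Set Γ)).mul_mem (h hx) (h hy)) ((centralizer (V : Set Γ)).inv_mem (h hx)))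
          ((centralizer (V : Set Γ)).inv_mem (h hy))
      · exact h
    have hcl : ⁅L, L⁆ ≤ centralizer (V : Set Γ) := by
      rw [commutator_le]
      exact hchief
    -- the quotient
    let π : Γ →* Γ ⧸ V := QuotientGroup.mk' V
    have hπs : Function.Surjective π := QuotientGroup.mk'_surjective V
    have hπker : ∀ x, π x = 1 ↔ x ∈ V := fun x => QuotientGroup.eq_one_iff x
    let L' : Subgroup (Γ ⧸ V) := L.map π
    let A' : Subgroup (Γ ⧸ V) := A.map π
    have hB' : Base L' A' q := hB.quot V hV.le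
    have hL'n : L'.Normal := hLn.map π hπs
    have htop' : L' ⊔ A' = ⊤ := by
      rw [← Subgroup.map_sup, htop, ← MonoidHom.range_eq_map, MonoidHom.range_eq_top.mpr hπs]
    have hL's : Group.IsSolvable L' :=
      solvable_of_surjective (π.subgroupMap_surjective L)
    have hcard' : Nat.card L' ≤ n := by
      by_contra hlt
      have hle : Nat.card L ≤ Nat.card L' := by omega
      have hbij := (π.subgroupMap_surjective L).bijective_of_nat_card_le hle
      apply hV.ne
      rw [eq_bot_iff]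
      intro v hv
      rw [mem_bot]
      have h1 : π.subgroupMap L ⟨v, hV.le hv⟩ = π.subgroupMap L 1 := by
        apply Subtype.ext
        show π v = π 1
        rw [map_one]
        exact (hπker v).mpr hv
      have h2 := hbij.1 h1
      exact congrArg Subtype.val h2
    have hIH := ih (Γ ⧸ V) L' A' hL'n htop' hB' hL's hcard'
    have hmap : (⁅L, L⁆ : Subgroup Γ).map π = ⁅L', L'⁆ := Subgroup.map_commutator L L π
    let f : (⁅L, L⁆ : Subgroup Γ) →* (⁅L', L'⁆ : Subgroup (Γ ⧸ V)) :=
      (π.comp (⁅L, L⁆ : Subgroup Γ).subtype).codRestrict (⁅L', L'⁆ : Subgroup (Γ ⧸ V)) (by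
        rintro ⟨x, hx⟩
        rw [← hmap]
        exact ⟨x, hx, rfl⟩)
    haveI := hIH
    refine _root_.isNilpotent_of_ker_le_center f ?_
    intro x hx
    have hx1 : π (x : Γ) = 1 := by
      have h0 : f x = 1 := hx
      exact congrArg Subtype.val h0
    have hxV : (x : Γ) ∈ V := (hπker _).mp hx1
    rw [Subgroup.mem_center_iff]
    intro y
    apply Subtype.ext
    exact (mem_centralizer_iff.mp (hcl y.2) x hxV).symm

/-- **The derived subgroup is nilpotent.** -/
theorem derived_nilp {Γ : Type u} [Group Γ] [Finite Γ] {L A : Subgroup Γ} {q : ℕ} (h : Base L A q)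
    (hs : Group.IsSolvable L) : Group.IsNilpotent (⁅L, L⁆ : Subgroup Γ) := by
  set K : Subgroup Γ := L ⊔ A with hK
  have hLK : L ≤ K := le_sup_left
  have hAK : A ≤ K := le_sup_right
  let L' : Subgroup K := L.subgroupOf K
  let A' : Subgroup K := A.subgroupOf K
  have hL'map : L'.map K.subtype = L := by
    simpa [L'] using (subgroupOf_map_subtype L K).trans (inf_eq_left.mpr hLK)
  have hA'map : A'.map K.subtype = A := by
    simpa [A'] using (subgroupOf_map_subtype A K).trans (inf_eq_left.mpr hAK)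
  have hB' : Base L' A' q := h.restrict
  have hL'n : L'.Normal := by
    rw [normal_subgroupOf_iff_le_normalizer hLK]
    exact sup_le le_normalizer h.inv
  have htop' : L' ⊔ A' = ⊤ := by
    apply Subgroup.map_injective K.subtype_injective
    rw [Subgroup.map_sup, hL'map, hA'map, ← MonoidHom.range_eq_map, Subgroup.range_subtype]
  have hinj : Function.Injective (Subgroup.inclusion hLK) := Subgroup.inclusion_injective hLK
  have hs' : Group.IsSolvable L' := by
    have e : L' ≃* L := (L.subgroupOfEquivOfLe hLK)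
    haveI := hs
    exact solvable_of_surjective (f := e.symm.toMonoidHom) e.symm.surjective
  have hIH := derived_nilp_aux (q := q) _ K L' A' hL'n htop' hB' hs' le_rfl
  have hmap : (⁅L', L'⁆ : Subgroup K).map K.subtype = ⁅L, L⁆ := by
    rw [Subgroup.map_commutator, hL'map]
  let g : (⁅L', L'⁆ : Subgroup K) →* (⁅L, L⁆ : Subgroup Γ) :=
    (K.subtype.comp (⁅L', L'⁆ : Subgroup K).subtype).codRestrict (⁅L, L⁆ : Subgroup Γ) (by
      rintro ⟨x, hx⟩
      rw [← hmap]
      exact ⟨x, hx, rfl⟩)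
  have hgs : Function.Surjective g := by
    rintro ⟨x, hx⟩
    rw [← hmap] at hx
    obtain ⟨y, hy, rfl⟩ := hx
    exact ⟨⟨y, hy⟩, rfl⟩
  exact nilpotent_of_surjective g hgs

end Cfsg.Agent.Lib.FpfPP
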