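/- The generation lemma for nilpotent `D`. -/
import Cfsg.Agent.Lib.FpfPP.Sum
import Cfsg.Agent.Lib.FpfPP.Basic
import Cfsg.Agent.Lib.SolvStruct.Frat2

set_option autoImplicit false

namespace Cfsg.Agent.Lib.FpfPP

open Subgroup Cfsg.Agent.Lib.Coprime.Action
open scoped commutatorElement

universe u

variable {Γ : Type u} [Group Γ] [Finite Γ] {q : ℕ}

namespace KL

/-- Conjugation by an element normalizing `D`, as an endomorphism of `D`. -/
def conjOn (D : Subgroup Γ) (g : Γ) (hg : g ∈ normalizer (D : Set Γ)) : ↥D →* ↥D where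
  toFun d := ⟨g * d * g⁻¹, (mem_normalizer_iff.mp hg d).mp d.2⟩
  map_one' := by ext; simp
  map_mul' a b := by ext; simp [mul_assoc]

@[simp] theorem conjOn_coe (D : Subgroup Γ) (g : Γ) (hg : g ∈ normalizer (D : Set Γ)) (d : ↥D) :
    ((conjOn D g hg d : ↥D) : Γ) = g * d * g⁻¹ := rfl

/-- The induced endomorphism of the abelianization. -/
noncomputable def barE (D : Subgroup Γ) (g : Γ) (hg : g ∈ normalizer (D : Set Γ)) : Monoid.End (Abelianization ↥D) :=
  Abelianization.map (conjOn D g hg)

theorem barE_of (D : Subgroup Γ) (g : Γ) (hg : g ∈ normalizer (D : Set Γ)) (d : ↥D) :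
    barE D g hg (Abelianization.of d) = Abelianization.of (conjOn D g hg d) := rfl

theorem barE_mul (D : Subgroup Γ) (g h : Γ) (hg : g ∈ normalizer (D : Set Γ)) (hh : h ∈ normalizer (D : Set Γ)) :
    barE D (g * h) (mul_mem hg hh) = barE D g hg * barE D h hh := by
  apply Abelianization.hom_ext
  ext d
  change barE D (g * h) _ (Abelianization.of d) = barE D g hg (barE D h hh (Abelianization.of d))
  simp only [barE_of]
  congr 1
  ext
  simp [mul_assoc]

theorem barE_one (D : Subgroup Γ) : barE D 1 (one_mem _) = 1 := by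
  apply Abelianization.hom_ext
  ext d
  change barE D 1 _ (Abelianization.of d) = Abelianization.of d
  simp only [barE_of]
  congr 1
  ext
  simp

theorem barE_pow (D : Subgroup Γ) (g : Γ) (hg : g ∈ normalizer (D : Set Γ)) (k : ℕ) :
    barE D g hg ^ k = barE D (g ^ k) (pow_mem hg k) := by
  induction k with
  | zero => simp only [pow_zero]; exact (barE_one D).symm
  | succ k ih => simp only [pow_succ]; rw [ih, ← barE_mul]

theorem barE_congr (D : Subgroup Γ) {g h : Γ} (e : g = h) (hg : g ∈ normalizer (D : Set Γ))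
    (hh : h ∈ normalizer (D : Set Γ)) : barE D g hg = barE D h hh := by
  subst e; rfl

/-- The coprime root trick in an abelian group. -/
theorem mem_of_pow_mem {V : Type*} [CommGroup V] (J : Subgroup V) {n m : ℕ} (hc : n.Coprime m) {u : V}
    (h1 : u ^ m = 1) (h2 : u ^ n ∈ J) : u ∈ J := by
  have hb := Nat.gcd_eq_gcd_ab n m
  rw [hc] at hb
  have hu : u = (u ^ n) ^ (Nat.gcdA n m) * (u ^ m) ^ (Nat.gcdB n m) := by
    rw [← zpow_natCast, ← zpow_natCast, ← zpow_mul, ← zpow_mul, ← zpow_add, ← hb]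
    simp
  rw [h1, one_zpow, mul_one] at hu
  rw [hu]
  exact J.zpow_mem h2 _

end KL

open KL

/-- **KL-gen**: `D` nilpotent with `D = [D, W]`, `W` abelian coprime to `D`, `x` of order dividing `q` (coprime)
acting fixed-point-freely on `W`: `D` is generated by the `W`-translates of `C_D(x)`. -/
theorem kl_gen (hq : q.Prime) {D W : Subgroup Γ} {x : Γ} (hD : Group.IsNilpotent D)
    (hWc : ∀ u ∈ W, ∀ v ∈ W, u * v = v * u) (hWD : W ≤ normalizer (D : Set Γ))
    (hxD : x ∈ normalizer (D : Set Γ)) (hxW : x ∈ normalizer (W : Set Γ)) (hxq : x ^ q = 1)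
    (hfpf : Fx W x = ⊥) (hcop : (Nat.card W).Coprime (Nat.card D)) (hqD : ¬ q ∣ Nat.card D)
    (hqW : ¬ q ∣ Nat.card W) (hDW : ⁅D, W⁆ = D) :
    D ≤ closure {g | ∃ w ∈ W, ∃ c ∈ Fx D x, g = w * c * w⁻¹} := by
  classical
  set S : Set Γ := {g | ∃ w ∈ W, ∃ c ∈ Fx D x, g = w * c * w⁻¹} with hS
  letI cW : CommGroup ↥W := { (inferInstance : Group ↥W) with
    mul_comm := fun a b => Subtype.ext (hWc a a.2 b b.2) }
  letI fW : Fintype ↥W := Fintype.ofFinite _
  let V := Abelianization ↥D
  -- the action of `W`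
  let ρ : ↥W →* Monoid.End V :=
    { toFun := fun w => barE D w (hWD w.2)
      map_one' := barE_one D
      map_mul' := fun a b => barE_mul D a b (hWD a.2) (hWD b.2) }
  have hρ : ∀ (w : ↥W) (d : ↥D), ρ w (Abelianization.of d) = Abelianization.of (conjOn D w (hWD w.2) d) :=
    fun w d => barE_of D w _ d
  let X : Monoid.End V := barE D x hxD
  -- conjugation by `x` on `W`
  let φ : ↥W →* ↥W :=
    { toFun := fun w => ⟨x * w * x⁻¹, (mem_normalizer_iff.mp hxW w).mp w.2⟩
      map_one' := by ext; simp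
      map_mul' := fun a b => by ext; simp [mul_assoc] }
  have hφc : ∀ w : ↥W, ((φ w : ↥W) : Γ) = x * w * x⁻¹ := fun _ => rfl
  have hφ : ∀ w, X * ρ w = ρ (φ w) * X := by
    intro w
    apply Abelianization.hom_ext
    ext d
    change barE D x hxD (barE D w (hWD w.2) (Abelianization.of d)) =
      barE D (φ w) (hWD (φ w).2) (barE D x hxD (Abelianization.of d))
    rw [barE_of, barE_of, barE_of, barE_of]
    congr 1
    ext
    simp [hφc, mul_assoc]
  have hφit : ∀ (k : ℕ) (w : ↥W), ((φ^[k] w : ↥W) : Γ) = x ^ k * w * (x ^ k)⁻¹ := by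
    intro k
    induction k with
    | zero => intro w; simp
    | succ k ih =>
      intro w
      rw [Function.iterate_succ_apply', hφc, ih, pow_succ', mul_inv_rev]
      group
  have hφq : ∀ w, φ^[q] w = w := by
    intro w
    ext
    rw [hφit, hxq]
    simp
  have hXq : X ^ q = 1 := by
    simp only [X]
    rw [barE_pow, barE_congr D hxq _ (one_mem _), barE_one]
  have hfix : ∀ w, φ w = w → w = 1 := by
    intro w hw
    have h1 : (w : Γ) ∈ Fx W x := by
      refine ⟨w.2, ?_⟩
      change (w : Γ) ∈ centralizer ({x} : Set Γ)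
      rw [mem_centralizer_iff]
      intro y hy
      rw [Set.mem_singleton_iff] at hy
      subst hy
      have h2 := congrArg Subtype.val hw
      rw [hφc] at h2
      calc y * (w : Γ) = (y * w * y⁻¹) * y := by group
        _ = w * y := by rw [h2]
    rw [hfpf, mem_bot] at h1
    exact Subtype.ext h1
  -- the norm
  let σ : V →* V :=
    { toFun := fun v => ∏ w, ρ w v
      map_one' := by simp
      map_mul' := fun a b => by simp [Finset.prod_mul_distrib] }
  have hσc : ∀ v, σ v = ∏ w, ρ w v := fun _ => rfl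
  have hσρ : ∀ (b : ↥W) (v : V), σ (ρ b v) = σ v := by
    intro b v
    simp only [hσc]
    have h2 : ∀ w : ↥W, ρ w (ρ b v) = ρ (w * b) v := fun w => by rw [map_mul]; rfl
    simp only [h2]
    exact Fintype.prod_equiv (Equiv.mulRight b) _ _ (fun _ => rfl)
  have hσ1 : ∀ v, σ v = 1 := by
    have h1 : ⁅D, W⁆ ≤ ((σ.comp Abelianization.of).ker).map D.subtype := by
      rw [commutator_le]
      intro a ha b hb
      refine ⟨⟨⁅a, b⁆, ?_⟩, ?_, rfl⟩
      · have : ⁅a, b⁆ = a * (b * a⁻¹ * b⁻¹) := by rw [commutatorElement_def]; group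
        rw [this]
        exact mul_mem ha ((mem_normalizer_iff.mp (hWD hb) _).mp (inv_mem ha))
      · change _ ∈ (σ.comp Abelianization.of).ker
        rw [MonoidHom.mem_ker, MonoidHom.comp_apply]
        have e : (⟨⁅a, b⁆, by
            have : ⁅a, b⁆ = a * (b * a⁻¹ * b⁻¹) := by rw [commutatorElement_def]; group
            rw [this]
            exact mul_mem ha ((mem_normalizer_iff.mp (hWD hb) _).mp (inv_mem ha))⟩ : ↥D) =
            ⟨a, ha⟩ * conjOn D b (hWD hb) ⟨a, ha⟩⁻¹ := by
          ext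
          simp [commutatorElement_def, mul_assoc]
        rw [e, map_mul, map_mul, map_inv, map_inv, map_inv, ← hρ ⟨b, hb⟩, hσρ]
        simp
    rw [hDW] at h1
    intro v
    induction v using QuotientGroup.induction_on with
    | H d =>
      obtain ⟨d', hd', e⟩ := h1 d.2
      have : d' = d := Subtype.ext e
      subst this
      exact hd'
  -- the identity
  have hid : ∀ u : V, u ^ Fintype.card ↥W ∈ Sum.spanJ ρ X ⊤ := by
    intro u
    have := Sum.sum_identity hq ρ X φ hφ hφq hXq hfix ⊤ (fun _ _ _ => mem_top _) (fun _ _ => mem_top _)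
      (mem_top u)
    have h2 : ∏ w, ρ w u = 1 := hσ1 u
    rwa [h2, inv_one, mul_one] at this
  -- lifting fixed points
  set J₀ : Subgroup ↥D := (closure S).subgroupOf D with hJ₀
  have hspan : Sum.spanJ ρ X ⊤ ≤ J₀.map Abelianization.of := by
    rw [Sum.spanJ, closure_le]
    rintro g ⟨w, c, -, hc, rfl⟩
    obtain ⟨d, rfl⟩ : ∃ d : ↥D, Abelianization.of d = c := QuotientGroup.mk_surjective c
    have hNmem : ∀ a b : ↥D, Abelianization.of a = Abelianization.of b → (a : Γ)⁻¹ * b ∈ ⁅D, D⁆ := by
      intro a b hab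
      have h1 : a⁻¹ * b ∈ (Abelianization.of (G := ↥D)).ker := by
        rw [MonoidHom.mem_ker, map_mul, map_inv, hab, inv_mul_cancel]
      rw [Abelianization.ker_of] at h1
      have h2 := Subgroup.mem_map_of_mem D.subtype h1
      rw [Subgroup.map_subtype_commutator] at h2
      simpa using h2
    have hzx : zpowers x ≤ normalizer (D : Set Γ) := zpowers_le.mpr hxD
    have hcz : (Nat.card (zpowers x)).Coprime (Nat.card D) := by
      rw [Nat.card_zpowers]
      rcases (Nat.dvd_prime hq).1 (orderOf_dvd_of_pow_eq_one hxq) with h | h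
      · rw [h]; exact Nat.coprime_one_left _
      · rw [h]; exact (Nat.Prime.coprime_iff_not_dvd hq).2 hqD
    have hNK : ⁅D, D⁆ ≤ D := by
      rw [commutator_le]
      intro a ha b hb
      rw [commutatorElement_def]
      exact mul_mem (mul_mem (mul_mem ha hb) (inv_mem ha)) (inv_mem hb)
    have hXn : ∀ n : ℕ, (X ^ n) (Abelianization.of d) = Abelianization.of d := by
      intro n
      induction n with
      | zero => rfl
      | succ n ih =>
        rw [pow_succ']
        change X ((X ^ n) (Abelianization.of d)) = _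
        rw [ih, hc]
    have hfixm : ∀ a ∈ zpowers x, a * (d : Γ) * a⁻¹ * (d : Γ)⁻¹ ∈ ⁅D, D⁆ := by
      intro a ha
      obtain ⟨n, rfl⟩ := mem_powers_iff_mem_zpowers.mpr ha
      have h1 := hXn n
      simp only [X] at h1
      rw [barE_pow, barE_of] at h1
      have h2 := hNmem _ _ (show Abelianization.of (conjOn D (x ^ n) (pow_mem hxD n) d)⁻¹ =
        Abelianization.of d⁻¹ by rw [map_inv, map_inv, h1])
      simpa [mul_assoc] using h2
    haveI := hD
    obtain ⟨c', ⟨hc'D, hc'z⟩, hc'N⟩ := Cfsg.Agent.Lib.Coprime.Action.exists_fixed_of_fixed_mod (K := D)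
      (A := zpowers x) ⁅D, D⁆ hzx hcz (Or.inr inferInstance) hNK
      (le_normalizer_commutator_of_le le_normalizer le_normalizer)
      (le_normalizer_commutator_of_le hzx hzx) d.2 hfixm
    have hc'F : c' ∈ Fx D x := ⟨hc'D, centralizer_le (by
      intro y hy
      rw [Set.mem_singleton_iff] at hy
      subst hy
      exact mem_zpowers y) hc'z⟩
    have hof : Abelianization.of (⟨c', hc'D⟩ : ↥D) = Abelianization.of d := by
      rw [← Subgroup.map_subtype_commutator] at hc'N
      obtain ⟨e, he, he2⟩ := hc'N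
      have h3 : (⟨c', hc'D⟩ : ↥D) = d * e := by
        ext
        rw [Subgroup.coe_mul]
        change c' = d * D.subtype e
        rw [he2]
        group
      have h4 : Abelianization.of e = 1 := by
        have : e ∈ (Abelianization.of (G := ↥D)).ker := by
          rw [Abelianization.ker_of]; exact he
        exact this
      rw [h3, map_mul, h4, mul_one]
    rw [← hof, hρ]
    refine ⟨conjOn D w (hWD w.2) ⟨c', hc'D⟩, ?_, rfl⟩
    change _ ∈ J₀
    rw [hJ₀, mem_subgroupOf]
    exact subset_closure ⟨w, w.2, c', hc'F, rfl⟩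
  have htop : J₀.map Abelianization.of = ⊤ := by
    rw [eq_top_iff]
    intro u _
    have h1 : u ^ Nat.card ↥D = 1 := by
      obtain ⟨d, rfl⟩ : ∃ d : ↥D, Abelianization.of d = u := QuotientGroup.mk_surjective u
      rw [← map_pow, pow_card_eq_one', map_one]
    have h2 := hspan (hid u)
    rw [Fintype.card_eq_nat_card] at h2
    exact mem_of_pow_mem _ hcop h1 h2
  have hJ : J₀ = ⊤ := by
    haveI := hD
    apply frattini_nongenerating (K := J₀)
    rw [eq_top_iff]
    intro d _
    have h1 : Abelianization.of d ∈ J₀.map Abelianization.of := htop ▸ mem_top _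
    obtain ⟨j, hj, e⟩ := h1
    have h3 : j⁻¹ * d ∈ commutator ↥D := by
      rw [← Abelianization.ker_of, MonoidHom.mem_ker, map_mul, map_inv, e, inv_mul_cancel]
    have h4 : d = j * (j⁻¹ * d) := by group
    rw [h4]
    exact mul_mem (mem_sup_left hj)
      (mem_sup_right (Cfsg.Agent.Lib.SolvStruct.Frat2.commutator_le_frattini_of_nilpotent h3))
  intro d hd
  have h1 : (⟨d, hd⟩ : ↥D) ∈ J₀ := hJ ▸ mem_top _
  exact h1

/-- The form used: if `W` and `C_D(x)` commute with `S` then `D` commutes with `S`. -/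
theorem kl_comm (hq : q.Prime) {D W : Subgroup Γ} {x : Γ} (hD : Group.IsNilpotent D)
    (hWc : ∀ u ∈ W, ∀ v ∈ W, u * v = v * u) (hWD : W ≤ normalizer (D : Set Γ))
    (hxD : x ∈ normalizer (D : Set Γ)) (hxW : x ∈ normalizer (W : Set Γ)) (hxq : x ^ q = 1)
    (hfpf : Fx W x = ⊥) (hcop : (Nat.card W).Coprime (Nat.card D)) (hqD : ¬ q ∣ Nat.card D)
    (hqW : ¬ q ∣ Nat.card W) (hDW : ⁅D, W⁆ = D) {S : Set Γ}
    (h1 : W ≤ centralizer S) (h2 : Fx D x ≤ centralizer S) : D ≤ centralizer S := by
  refine (kl_gen hq hD hWc hWD hxD hxW hxq hfpf hcop hqD hqW hDW).trans ?_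
  rw [closure_le]
  rintro g ⟨w, hw, c, hc, rfl⟩
  exact mul_mem (mul_mem (h1 hw) (h2 hc)) (inv_mem (h1 hw))

end Cfsg.Agent.Lib.FpfPP
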