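/- The order formula and generation off a line. -/
import Cfsg.Agent.Lib.FpfPP.AD
import Cfsg.Agent.Lib.FpfPP.Quot

set_option autoImplicit false

namespace Cfsg.Agent.Lib.FpfPP

open Subgroup Cfsg.Agent.Lib.Coprime.Action Cfsg.Agent.Lib.Coprime.SchurZassenhaus
open scoped commutatorElement

universe u

variable {Γ : Type u} [Group Γ] [Finite Γ] {G A : Subgroup Γ} {q : ℕ}

namespace OFaux

theorem mem_lines_iff' {A B : Subgroup Γ} : B ∈ lines A ↔ ∃ a ∈ A, a ≠ 1 ∧ zpowers a = B := by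
  classical
  unfold lines
  simp only [Finset.mem_image, Set.Finite.mem_toFinset, Sharp]
  constructor
  · rintro ⟨a, ⟨ha, ha1⟩, rfl⟩
    exact ⟨a, ha, ha1, rfl⟩
  · rintro ⟨a, ha, ha1, rfl⟩
    exact ⟨a, ⟨ha, ha1⟩, rfl⟩

theorem prod_lines_map {Γ' : Type u} [Group Γ'] [Finite Γ'] (f : Γ →* Γ') {A : Subgroup Γ}
    (hf : Set.InjOn f A) (F : Subgroup Γ' → ℕ) :
    ∏ B ∈ lines (A.map f), F B = ∏ B ∈ lines A, F (B.map f) := by
  symm
  refine Finset.prod_nbij (fun B => B.map f) ?_ ?_ ?_ (fun _ _ => rfl)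
  · intro B hB
    obtain ⟨a, ha, ha1, rfl⟩ := mem_lines_iff'.mp hB
    refine mem_lines_iff'.mpr ⟨f a, ⟨a, ha, rfl⟩, ?_, ?_⟩
    · intro h
      exact ha1 (hf ha A.one_mem (by simpa using h))
    · exact (MonoidHom.map_zpowers f a).symm
  · intro B₁ h₁ B₂ h₂ e
    have h₁' := mem_lines_iff'.mp (Finset.mem_coe.mp h₁)
    have h₂' := mem_lines_iff'.mp (Finset.mem_coe.mp h₂)
    obtain ⟨a₁, ha₁, -, rfl⟩ := h₁'
    obtain ⟨a₂, ha₂, -, rfl⟩ := h₂'
    have e' : (zpowers a₁).map f = (zpowers a₂).map f := e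
    rw [MonoidHom.map_zpowers, MonoidHom.map_zpowers] at e'
    have key : ∀ {x y : Γ}, x ∈ A → y ∈ A → zpowers (f x) = zpowers (f y) → x ∈ zpowers y := by
      intro x y hx hy e
      have h1 : f x ∈ zpowers (f y) := e ▸ mem_zpowers _
      obtain ⟨k, hk⟩ := h1
      have h2 : y ^ k = x := hf (A.zpow_mem hy k) hx (by simpa using hk)
      exact ⟨k, h2⟩
    apply le_antisymm
    · rw [zpowers_le]
      exact key ha₁ ha₂ e'
    · rw [zpowers_le]
      exact key ha₂ ha₁ e'.symm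
  · intro B' hB'
    obtain ⟨a', ⟨a, ha, rfl⟩, ha1, rfl⟩ := mem_lines_iff'.mp (Finset.mem_coe.mp hB')
    refine ⟨zpowers a, Finset.mem_coe.mpr (mem_lines_iff'.mpr ⟨a, ha, ?_, rfl⟩), ?_⟩
    · rintro rfl
      exact ha1 (map_one f)
    · exact MonoidHom.map_zpowers f a

theorem centralizer_zpowers' (a : Γ) :
    centralizer ((zpowers a : Subgroup Γ) : Set Γ) = centralizer ({a} : Set Γ) := by
  ext x
  rw [mem_centralizer_iff, mem_centralizer_iff]
  constructor
  · intro h g hg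
    rw [Set.mem_singleton_iff] at hg
    subst hg
    exact h _ (mem_zpowers _)
  · intro h g hg
    obtain ⟨k, rfl⟩ := hg
    have : Commute a x := h a (Set.mem_singleton a)
    exact (this.zpow_left k).eq

theorem inf_centralizer_zpowers (L : Subgroup Γ) (a : Γ) :
    L ⊓ centralizer ((zpowers a : Subgroup Γ) : Set Γ) = Fx L a := by
  rw [centralizer_zpowers']


theorem mem_Fx {L : Subgroup Γ} {a x : Γ} : x ∈ Fx L a ↔ x ∈ L ∧ a * x = x * a := by
  rw [Fx, mem_inf, mem_centralizer_iff]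
  simp

/-- One inductive step: a line in a quotient. -/
theorem card_fx_step (h : Base G A q) {D : Subgroup Γ} (hDG : D ≤ G) :
    let K := G ⊔ A
    ∀ [(D.subgroupOf K).Normal] (a₁ : ↥K), a₁ ∈ A.subgroupOf K →
      Nat.card ↥(Fx G (a₁ : Γ)) = Nat.card ↥(Fx D (a₁ : Γ)) *
        Nat.card ↥(Fx ((G.subgroupOf K).map (QuotientGroup.mk' (D.subgroupOf K)))
          (QuotientGroup.mk' (D.subgroupOf K) a₁)) := by
  intro K _ a₁ ha₁
  have hGK : G ≤ K := le_sup_left
  have hAK : A ≤ K := le_sup_right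
  have h₁ : Base (G.subgroupOf K) (A.subgroupOf K) q := h.restrict
  have hN₁ : D.subgroupOf K ≤ G.subgroupOf K := fun x hx => hDG hx
  have e := fx_map_mk h₁.toBaseNT (D.subgroupOf K) hN₁ (le_refl _) h₁.inv ha₁
  rw [← e]
  have hc := Cfsg.Agent.Lib.Coprime.SchurZassenhaus.card_map_mul_card_inf_ker
    (QuotientGroup.mk' (D.subgroupOf K)) (Fx (G.subgroupOf K) a₁)
  rw [QuotientGroup.ker_mk'] at hc
  have hinj : Function.Injective K.subtype := K.subtype_injective
  have e1 : (Fx (G.subgroupOf K) a₁).map K.subtype = Fx G (a₁ : Γ) := by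
    ext x
    rw [mem_Fx]
    constructor
    · rintro ⟨y, hy, rfl⟩
      obtain ⟨hy1, hy2⟩ := mem_Fx.mp hy
      exact ⟨hy1, congrArg Subtype.val hy2⟩
    · rintro ⟨hx1, hx2⟩
      exact ⟨⟨x, hGK hx1⟩, mem_Fx.mpr ⟨hx1, Subtype.ext hx2⟩, rfl⟩
  have e2 : (Fx (G.subgroupOf K) a₁ ⊓ D.subgroupOf K).map K.subtype = Fx D (a₁ : Γ) := by
    ext x
    rw [mem_Fx]
    constructor
    · rintro ⟨y, ⟨hy, hy3⟩, rfl⟩
      obtain ⟨hy1, hy2⟩ := mem_Fx.mp hy
      exact ⟨hy3, congrArg Subtype.val hy2⟩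
    · rintro ⟨hx1, hx2⟩
      exact ⟨⟨x, hGK (hDG hx1)⟩, ⟨mem_Fx.mpr ⟨hDG hx1, Subtype.ext hx2⟩, hx1⟩, rfl⟩
  rw [← e1, ← e2, Subgroup.card_map_of_injective hinj, Subgroup.card_map_of_injective hinj, ← hc, mul_comm]

end OFaux

open OFaux

/-- Order formula for solvable subgroups, by induction on the order. -/
theorem card_solv_aux (n : ℕ) : ∀ (Γ : Type u) [Group Γ] [Finite Γ] (G A : Subgroup Γ) (q : ℕ),
    Base G A q → Group.IsSolvable G → Nat.card G = n →
      Nat.card G = ∏ B ∈ lines A, Nat.card ↥(G ⊓ centralizer (B : Set Γ)) := by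
  induction n using Nat.strong_induction_on with
  | _ n ih =>
  intro Γ _ _ G A q h hs hn
  by_cases hG : G = ⊥
  · subst hG
    rw [Nat.card_eq_one_iff_unique.mpr ⟨inferInstance, inferInstance⟩]
    symm
    apply Finset.prod_eq_one
    intro B _
    rw [bot_inf_eq]
    exact Nat.card_unique
  -- the derived subgroup
  set D : Subgroup Γ := ⁅G, G⁆ with hD
  have hDG : D ≤ G := commutator_le_self G
  have hDA : Inv A D := Inv.comm h.inv h.inv
  have hGD : G ≤ normalizer (D : Set Γ) := le_normalizer_commutator_of_le le_normalizer le_normalizer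
  have hne : D ≠ G := by
    intro e
    have hnt : Nontrivial G := (nontrivial_iff_ne_bot G).mpr hG
    have h1 := Group.IsSolvable.commutator_lt_top_of_nontrivial (G := G)
    apply h1.ne
    apply Subgroup.map_injective G.subtype_injective
    rw [map_subtype_commutator, ← MonoidHom.range_eq_map, range_subtype]
    exact e
  have hlt : Nat.card D < n := by
    rw [← hn]
    have hdvd := Subgroup.card_dvd_of_le hDG
    have hle := Nat.le_of_dvd Nat.card_pos hdvd
    refine lt_of_le_of_ne hle fun e => hne ?_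
    exact Subgroup.eq_of_le_of_card_ge hDG e.ge
  have hDsolv : Group.IsSolvable D := isSolvable_of_le hDG
  have iD := ih _ hlt Γ D A q (h.mono hDG hDA) hDsolv rfl
  -- the ambient
  set K : Subgroup Γ := G ⊔ A with hK
  have hGK : G ≤ K := le_sup_left
  have hAK : A ≤ K := le_sup_right
  have hKD : K ≤ normalizer (D : Set Γ) := sup_le hGD hDA
  haveI hN : (D.subgroupOf K).Normal := normal_subgroupOf_of_le_normalizer hKD
  have h₁ : Base (G.subgroupOf K) (A.subgroupOf K) q := h.restrict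
  have hN₁ : D.subgroupOf K ≤ G.subgroupOf K := fun x hx => hDG hx
  have h₂ := h₁.quot (D.subgroupOf K) hN₁
  set π := QuotientGroup.mk' (D.subgroupOf K) with hπ
  set T := (G.subgroupOf K).map π with hT
  have hTc : ∀ x ∈ T, ∀ y ∈ T, x * y = y * x := by
    rintro _ ⟨x, hx, rfl⟩ _ ⟨y, hy, rfl⟩
    have hc : (x * y)⁻¹ * (y * x) ∈ D.subgroupOf K := by
      rw [mem_subgroupOf]
      have e : (((x * y)⁻¹ * (y * x) : K) : Γ) = ⁅(y : Γ)⁻¹, (x : Γ)⁻¹⁆ := by
        simp [commutatorElement_def]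
        group
      rw [e]
      exact commutator_mem_commutator (G.inv_mem hy) (G.inv_mem hx)
    have h3 : (QuotientGroup.mk (x * y) : ↥K ⧸ D.subgroupOf K) = QuotientGroup.mk (y * x) :=
      QuotientGroup.eq.mpr hc
    change π x * π y = π y * π x
    rw [← map_mul, ← map_mul]
    exact h3
  have iT := ad_card h₂ (le_refl T) hTc h₂.inv
  -- injectivity on `A`
  have hAG : A ⊓ G = ⊥ := disjoint_of_coprime_card h.copA
  have hinj1 : Set.InjOn π (A.subgroupOf K : Set ↥K) := by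
    intro x hx y hy e
    have h3 : x⁻¹ * y ∈ D.subgroupOf K := QuotientGroup.eq.mp e
    have h4 : ((x⁻¹ * y : K) : Γ) ∈ A ⊓ G :=
      ⟨(A.subgroupOf K).mul_mem ((A.subgroupOf K).inv_mem hx) hy, hDG h3⟩
    rw [hAG, mem_bot] at h4
    have h5 : x⁻¹ * y = 1 := Subtype.ext h4
    exact (inv_mul_eq_one.mp h5)
  have hinj2 : Set.InjOn K.subtype (A.subgroupOf K : Set ↥K) := K.subtype_injective.injOn
  have hAmap : (A.subgroupOf K).map K.subtype = A := by
    rw [subgroupOf_map_subtype]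
    exact inf_eq_left.mpr hAK
  have pG : ∀ (L : Subgroup Γ), ∏ B ∈ lines A, Nat.card ↥(L ⊓ centralizer (B : Set Γ)) =
      ∏ B ∈ lines (A.subgroupOf K), Nat.card ↥(L ⊓ centralizer ((B.map K.subtype : Subgroup Γ) : Set Γ)) := by
    intro L
    conv_lhs => rw [← hAmap]
    exact prod_lines_map K.subtype hinj2 (fun B => Nat.card ↥(L ⊓ centralizer (B : Set Γ)))
  have pT : ∏ B ∈ lines ((A.subgroupOf K).map π), Nat.card ↥(T ⊓ centralizer ((B : Subgroup (↥K ⧸ D.subgroupOf K)) : Set (↥K ⧸ D.subgroupOf K))) =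
      ∏ B ∈ lines (A.subgroupOf K), Nat.card ↥(T ⊓ centralizer ((B.map π : Subgroup (↥K ⧸ D.subgroupOf K)) : Set (↥K ⧸ D.subgroupOf K))) :=
    prod_lines_map π hinj1 (fun B => Nat.card ↥(T ⊓ centralizer ((B : Subgroup (↥K ⧸ D.subgroupOf K)) : Set (↥K ⧸ D.subgroupOf K))))
  have hline : ∀ B ∈ lines (A.subgroupOf K),
      Nat.card ↥(G ⊓ centralizer ((B.map K.subtype : Subgroup Γ) : Set Γ)) =
      Nat.card ↥(D ⊓ centralizer ((B.map K.subtype : Subgroup Γ) : Set Γ)) *
        Nat.card ↥(T ⊓ centralizer ((B.map π : Subgroup (↥K ⧸ D.subgroupOf K)) : Set (↥K ⧸ D.subgroupOf K))) := by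
    intro B hB
    obtain ⟨a₁, ha₁, -, rfl⟩ := mem_lines_iff'.mp hB
    rw [MonoidHom.map_zpowers, MonoidHom.map_zpowers, inf_centralizer_zpowers, inf_centralizer_zpowers,
      inf_centralizer_zpowers]
    exact card_fx_step h hDG a₁ ha₁
  have hcard : Nat.card G = Nat.card D * Nat.card T := by
    have hc := card_map_mul_card_inf_ker π (G.subgroupOf K)
    rw [hπ, QuotientGroup.ker_mk', inf_eq_right.mpr hN₁] at hc
    have e1 : Nat.card ↥(G.subgroupOf K) = Nat.card G := Nat.card_congr (subgroupOfEquivOfLe hGK).toEquiv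
    have e2 : Nat.card ↥(D.subgroupOf K) = Nat.card D :=
      Nat.card_congr (subgroupOfEquivOfLe (hDG.trans hGK)).toEquiv
    rw [e1, e2] at hc
    rw [← hc, mul_comm]
  rw [hcard, pG G, Finset.prod_congr rfl hline, Finset.prod_mul_distrib, ← pG D, ← pT, ← iD, ← iT]

/-- Order formula for solvable invariant subgroups. -/
theorem Base.card_solv (h : Base G A q) {L : Subgroup Γ} (hLG : L ≤ G) (hL : Inv A L) (hs : Group.IsSolvable L) :
    Nat.card L = ∏ B ∈ lines A, Nat.card ↥(L ⊓ centralizer (B : Set Γ)) :=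
  card_solv_aux _ Γ L A q (h.mono hLG hL) hs rfl

namespace OFaux

theorem sylow_val {r : ℕ} [Fact r.Prime] {Q K : Subgroup Γ} (h : IsSylowIn r Q K) :
    (Nat.card K).factorization r = (Nat.card Q).factorization r := by
  have e := card_eq_card_mul_relIndex h.1
  have h0 : Q.relIndex K ≠ 0 := by
    intro h0
    rw [h0, mul_zero] at e
    exact Nat.card_pos.ne' e
  rw [e, Nat.factorization_mul Nat.card_pos.ne' h0]
  simp [Nat.factorization_eq_zero_of_not_dvd h.2.2]

theorem sylow_fx (h : Base G A q) {L : Subgroup Γ} (hLG : L ≤ G) (hL : Inv A L) {r : ℕ} [Fact r.Prime]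
    {S : Subgroup Γ} (hS : IsSylowIn r S L) (hSA : Inv A S) {a : Γ} (ha : a ∈ A) :
    IsSylowIn r (Fx S a) (Fx L a) := by
  have hsA : Group.IsSolvable A := h.isSolvable_A
  have hcopL : (Nat.card A).Coprime (Nat.card L) := h.copA_le hLG
  have hFLG : Fx L a ≤ L := inf_le_left
  have hcopF : (Nat.card A).Coprime (Nat.card (Fx L a)) := h.copA_le (hFLG.trans hLG)
  have hinv : Inv A (Fx L a) := h.inv_fx hL ha
  obtain ⟨Q, hQ, hQA⟩ := exists_invariant_sylowIn (p := r) (K := Fx L a) hinv hcopF (Or.inl hsA)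
  obtain ⟨Q₁, hQ₁, hQ₁A, hQQ₁⟩ := exists_invariant_sylowIn_ge (K := L) (U := Q) hL hcopL (Or.inl hsA)
    (hQ.1.trans hFLG) hQ.2.1 hQA
  obtain ⟨c, hc, e⟩ := invariant_sylowIn_conj hL hcopL (Or.inl hsA) hQ₁ hS hQ₁A hSA
  have hc1 : c = 1 := by
    have : c ∈ G ⊓ centralizer (A : Set Γ) := ⟨hLG hc.1, hc.2⟩
    rw [h.triv, mem_bot] at this
    exact this
  subst hc1
  have e' : Q₁ = S := by simpa using e
  subst e'
  have hle : Fx Q₁ a ≤ Fx L a := inf_le_inf_right _ hS.1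
  refine ⟨hle, hS.2.1.to_le inf_le_left, fun hd => hQ.2.2 ?_⟩
  have hQle : Q ≤ Fx Q₁ a := le_inf hQQ₁ (hQ.1.trans inf_le_right)
  exact hd.trans (relIndex_dvd_of_le_left _ hQle)

end OFaux

/-- Order formula for all invariant subgroups (through invariant Sylow subgroups). -/
theorem Base.card_prod (h : Base G A q) {L : Subgroup Γ} (hLG : L ≤ G) (hL : Inv A L) :
    Nat.card L = ∏ B ∈ lines A, Nat.card ↥(L ⊓ centralizer (B : Set Γ)) := by
  have hsA : Group.IsSolvable A := h.isSolvable_A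
  have hcopL : (Nat.card A).Coprime (Nat.card L) := h.copA_le hLG
  apply Nat.eq_of_factorization_eq Nat.card_pos.ne'
    (Finset.prod_ne_zero_iff.mpr fun _ _ => Nat.card_pos.ne')
  intro r
  by_cases hr : r.Prime
  swap
  · rw [Nat.factorization_eq_zero_of_not_prime _ hr, Nat.factorization_eq_zero_of_not_prime _ hr]
  haveI : Fact r.Prime := ⟨hr⟩
  obtain ⟨S, hS, hSA⟩ := exists_invariant_sylowIn (p := r) (K := L) hL hcopL (Or.inl hsA)
  have hSs : Group.IsSolvable S := by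
    haveI := hS.2.1.isNilpotent
    infer_instance
  have hc := h.card_solv (hS.1.trans hLG) hSA hSs
  rw [sylow_val hS, hc, Nat.factorization_prod (fun _ _ => Nat.card_pos.ne'),
    Nat.factorization_prod (fun _ _ => Nat.card_pos.ne'), Finsupp.finsetSum_apply,
    Finsupp.finsetSum_apply]
  apply Finset.sum_congr rfl
  intro B hB
  obtain ⟨a, ha, -, rfl⟩ := mem_lines_iff'.mp hB
  rw [inf_centralizer_zpowers, inf_centralizer_zpowers]
  exact (sylow_val (sylow_fx h hLG hL hS hSA ha)).symm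

/-- `[L, b] ≤ ⟨C_L(c) : c ∉ ⟨b⟩⟩`.  (Let `L₀` be the right side.  By `card_prod` for `L` and `L₀`, and
`L₀ ⊓ C(B) = L ⊓ C(B)` for lines `B ≠ ⟨b⟩`: `|C_L(b) L₀| = |L|`, so `L = C_L(b) L₀` and `g⁻¹ (b g b⁻¹) ∈ L₀`.) -/
theorem Base.comm_le_off (h : Base G A q) {L : Subgroup Γ} (hLG : L ≤ G) (hL : Inv A L) {b : Γ} (hb : b ∈ A)
    (hb1 : b ≠ 1) : ⁅L, zpowers b⁆ ≤ ⨆ a ∈ Off A b, Fx L a := by
  classical
  have hB : Base L A q := h.mono hLG hL
  set L₀ : Subgroup Γ := ⨆ a ∈ Off A b, Fx L a with hL₀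
  have hL₀G : L₀ ≤ L := iSup₂_le fun a _ => inf_le_left
  have hle : ∀ a ∈ Off A b, Fx L a ≤ L₀ := fun a ha => le_iSup₂_of_le a ha le_rfl
  have hL₀A : Inv A L₀ := by
    apply inv_of_conj
    intro c hc x hx
    have : L₀ ≤ L₀.comap (MulAut.conj c).toMonoidHom := by
      refine iSup₂_le fun a ha y hy => ?_
      exact hle a ha (conj_mem_of_inv (hB.inv_fx hB.inv ha.1) hc hy)
    exact this hx
  have cG := hB.card_prod (le_refl L) hB.inv
  have cL := hB.card_prod hL₀G hL₀A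
  set B₀ : Subgroup Γ := zpowers b with hB₀
  have hB₀m : B₀ ∈ lines A := mem_lines_iff'.mpr ⟨b, hb, hb1, rfl⟩
  rw [← Finset.mul_prod_erase _ _ hB₀m] at cG cL
  have hrest : ∏ B ∈ (lines A).erase B₀, Nat.card ↥(L₀ ⊓ centralizer (B : Set Γ)) =
      ∏ B ∈ (lines A).erase B₀, Nat.card ↥(L ⊓ centralizer (B : Set Γ)) := by
    apply Finset.prod_congr rfl
    intro B hB'
    obtain ⟨hne, hBm⟩ := Finset.mem_erase.mp hB'
    obtain ⟨a, ha, ha1, rfl⟩ := mem_lines_iff'.mp hBm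
    have hoff : a ∈ Off A b := by
      refine ⟨ha, fun hab => hne ?_⟩
      apply Subgroup.eq_of_le_of_card_ge ((zpowers_le).mpr hab)
      rw [Nat.card_zpowers, Nat.card_zpowers, hB.orderOf_eq ha ha1, hB.orderOf_eq hb hb1]
    rw [inf_centralizer_zpowers, inf_centralizer_zpowers]
    congr 2
    apply le_antisymm
    · exact inf_le_inf_right _ hL₀G
    · exact le_inf (hle a hoff) inf_le_right
  rw [hrest] at cL
  set P := ∏ B ∈ (lines A).erase B₀, Nat.card ↥(L ⊓ centralizer (B : Set Γ)) with hP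
  have hP0 : 0 < P := Finset.prod_pos fun _ _ => Nat.card_pos
  rw [hB₀, inf_centralizer_zpowers] at cG cL
  -- the coset count
  set H : Subgroup Γ := Fx L b with hH
  have hHG : H ≤ L := inf_le_left
  have hinf : Fx L₀ b = L₀ ⊓ H := by
    rw [hH]
    apply le_antisymm
    · exact le_inf inf_le_left (inf_le_inf_right _ hL₀G)
    · exact le_inf inf_le_left (inf_le_right.trans inf_le_right)
  rw [hinf] at cL
  have r1 : Nat.card H = Nat.card ↥(L₀ ⊓ H) * L₀.relIndex H := by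
    rw [card_eq_card_mul_relIndex (inf_le_right : L₀ ⊓ H ≤ H), inf_relIndex_right]
  have r2 : Nat.card L = Nat.card L₀ * L₀.relIndex L := card_eq_card_mul_relIndex hL₀G
  have hr : L₀.relIndex H = L₀.relIndex L := by
    have h1 : Nat.card L₀ * L₀.relIndex L = Nat.card ↥(L₀ ⊓ H) * L₀.relIndex H * P := by
      rw [← r2, cG, r1]
    rw [cL] at h1
    have h2 : Nat.card ↥(L₀ ⊓ H) * P * L₀.relIndex L = Nat.card ↥(L₀ ⊓ H) * P * L₀.relIndex H := by
      rw [h1]
      ring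
    exact (Nat.eq_of_mul_eq_mul_left (mul_pos Nat.card_pos hP0) h2).symm
  have hsurj : Function.Surjective (quotientSubgroupOfEmbeddingOfLE L₀ hHG) := by
    have hinj := (quotientSubgroupOfEmbeddingOfLE L₀ hHG).injective
    refine (Function.Injective.bijective_of_nat_card_le hinj ?_).2
    change Subgroup.relIndex L₀ L ≤ Subgroup.relIndex L₀ H
    rw [hr]
  have hfac : ∀ g ∈ L, ∃ l ∈ L₀, ∃ u ∈ H, g = l * u := by
    intro g hg
    obtain ⟨x, hx⟩ := hsurj (QuotientGroup.mk ⟨g⁻¹, L.inv_mem hg⟩)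
    induction x using QuotientGroup.induction_on with
    | _ u =>
    have e : (QuotientGroup.mk (inclusion hHG u) : ↥L ⧸ L₀.subgroupOf L) =
      QuotientGroup.mk ⟨g⁻¹, L.inv_mem hg⟩ := hx
    have e2 := QuotientGroup.eq.mp e
    rw [mem_subgroupOf] at e2
    have e3 : (u : Γ)⁻¹ * g⁻¹ ∈ L₀ := by simpa using e2
    refine ⟨((u : Γ)⁻¹ * g⁻¹)⁻¹, L₀.inv_mem e3, (u : Γ)⁻¹, H.inv_mem u.2, ?_⟩
    group
  -- the commutator
  have hbA : zpowers b ≤ A := zpowers_le.mpr hb
  rw [Subgroup.commutator_le]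
  intro g hg c hc
  obtain ⟨l, hl, u, hu, rfl⟩ := hfac g hg
  have hcu : c * u = u * c := by
    obtain ⟨k, rfl⟩ := hc
    have h1 : Commute b u := (mem_Fx.mp hu).2
    exact (h1.zpow_left k).eq
  have e : ⁅l * u, c⁆ = l * (c * l⁻¹ * c⁻¹) := by
    rw [commutatorElement_def]
    calc l * u * c * (l * u)⁻¹ * c⁻¹ = l * (u * c) * u⁻¹ * l⁻¹ * c⁻¹ := by group
      _ = l * (c * u) * u⁻¹ * l⁻¹ * c⁻¹ := by rw [hcu]
      _ = l * (c * l⁻¹ * c⁻¹) := by group
  rw [e]
  exact L₀.mul_mem hl (conj_mem_of_inv hL₀A (hbA hc) (L₀.inv_mem hl))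

namespace OFaux

theorem le_normalizer_zpowers (h : BaseNT G A q) {b : Γ} (hb : b ∈ A) :
    A ≤ normalizer ((zpowers b : Subgroup Γ) : Set Γ) := by
  have hbA : zpowers b ≤ A := zpowers_le.mpr hb
  intro a ha
  rw [mem_normalizer_iff]
  intro x
  have key : ∀ y ∈ zpowers b, ∀ d ∈ A, d * y * d⁻¹ = y := by
    intro y hy d hd
    have := h.commA hd (hbA hy)
    rw [this]
    group
  constructor
  · intro hx
    rwa [key x hx a ha]
  · intro hx
    have e := key _ hx a⁻¹ (A.inv_mem ha)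
    have e2 : a⁻¹ * (a * x * a⁻¹) * a⁻¹⁻¹ = x := by group
    rw [e2] at e
    rwa [e]

end OFaux

/-- Hence equality. -/
theorem Base.off_eq_comm (h : Base G A q) {L : Subgroup Γ} (hLG : L ≤ G) (hL : Inv A L) {b : Γ} (hb : b ∈ A)
    (hb1 : b ≠ 1) : (⨆ a ∈ Off A b, Fx L a) = ⁅L, zpowers b⁆ := by
  apply le_antisymm _ (h.comm_le_off hLG hL hb hb1)
  refine iSup₂_le fun a ha t ht => ?_
  set N : Subgroup Γ := ⁅L, zpowers b⁆ with hN
  have hbA : zpowers b ≤ A := zpowers_le.mpr hb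
  have hNL : N ≤ L := commutator_le_of_le_normalizer (hbA.trans hL)
  have hLN : L ≤ normalizer (N : Set Γ) := le_normalizer_commutator_left L (zpowers b)
  have hAN : A ≤ normalizer (N : Set Γ) :=
    le_normalizer_commutator_of_le hL (le_normalizer_zpowers h.toBaseNT hb)
  have hcop : (Nat.card A).Coprime (Nat.card L) := h.copA_le hLG
  have hsA : Group.IsSolvable A := h.isSolvable_A
  obtain ⟨ht1, ht2⟩ := mem_Fx.mp ht
  have hfix : ∀ x ∈ A, x * t * x⁻¹ * t⁻¹ ∈ N := by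
    intro x hx
    have hx' : x ∈ zpowers b ⊔ zpowers a := by
      rw [BaseNT.sup_zpowers h.toBaseNT hb hb1 ha.1 ha.2]
      exact hx
    have hnorm : zpowers a ≤ normalizer ((zpowers b : Subgroup Γ) : Set Γ) :=
      (zpowers_le.mpr ha.1).trans (le_normalizer_zpowers h.toBaseNT hb)
    obtain ⟨v, hv, u, hu, rfl⟩ := exists_mul_of_mem_sup hnorm hx'
    have hut : u * t = t * u := by
      obtain ⟨k, rfl⟩ := hu
      have h1 : Commute a t := ht2
      exact (h1.zpow_left k).eq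
    have e : v * u * t * (v * u)⁻¹ * t⁻¹ = ⁅t, v⁆⁻¹ := by
      rw [commutatorElement_def]
      calc v * u * t * (v * u)⁻¹ * t⁻¹ = v * (u * t) * u⁻¹ * v⁻¹ * t⁻¹ := by group
        _ = v * (t * u) * u⁻¹ * v⁻¹ * t⁻¹ := by rw [hut]
        _ = (t * v * t⁻¹ * v⁻¹)⁻¹ := by group
    rw [e]
    exact N.inv_mem (commutator_mem_commutator ht1 hv)
  obtain ⟨c, hc, hc2⟩ := exists_fixed_of_fixed_mod (K := L) (A := A) N hL hcop (Or.inl hsA) hNL hLN hAN ht1 hfix
  have hc1 : c = 1 := by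
    have : c ∈ G ⊓ centralizer (A : Set Γ) := ⟨hLG hc.1, hc.2⟩
    rw [h.triv, mem_bot] at this
    exact this
  subst hc1
  have := N.inv_mem hc2
  simpa using this

/-- **Lemma L**: `G` is generated by the fixed points off any one line. -/
theorem MC.gen_off (h : MC G A q) {b : Γ} (hb : b ∈ A) (hb1 : b ≠ 1) : (⨆ a ∈ Off A b, Fx G a) = G := by
  have hB : Base G A q := h.toBase
  set L₀ : Subgroup Γ := ⨆ a ∈ Off A b, Fx G a with hL₀
  have hL₀G : L₀ ≤ G := iSup₂_le fun a _ => inf_le_left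
  set C : Subgroup Γ := ⁅G, zpowers b⁆ with hC
  have hCL : C ≤ L₀ := hB.comm_le_off (le_refl G) hB.inv hb hb1
  have hCG : C ≤ G := hCL.trans hL₀G
  have hGC : G ≤ normalizer (C : Set Γ) := le_normalizer_commutator_left G (zpowers b)
  have hCA : Inv A C := Inv.comm hB.inv (le_normalizer_zpowers hB.toBaseNT hb)
  rcases h.simple C hCG hGC hCA with hbot | htop
  · exfalso
    apply h.nons
    have hsub : G ≤ centralizer ({b} : Set Γ) := by
      intro g hg
      rw [mem_centralizer_iff]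
      intro c hc
      rw [Set.mem_singleton_iff] at hc
      subst hc
      have h1 : ⁅g, c⁆ ∈ C := commutator_mem_commutator hg (mem_zpowers _)
      rw [hbot, mem_bot, commutatorElement_eq_one_iff_mul_comm] at h1
      exact h1.symm
    have hcomm : ∀ x ∈ G, ∀ y ∈ G, x * y = y * x := fun x hx y hy =>
      hB.abel b hb hb1 x ⟨hx, hsub hx⟩ y ⟨hy, hsub hy⟩
    exact Group.isSolvable_of_comm fun x y => Subtype.ext (hcomm x x.2 y y.2)
  · exact le_antisymm hL₀G (htop ▸ hCL)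

end Cfsg.Agent.Lib.FpfPP
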