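/- The `p`-part and `p'`-part of a nilpotent subgroup. -/
import Cfsg.Agent.Lib.FpfPP.Defs
import Cfsg.Agent.Lib.OddLocal.CN

set_option autoImplicit false
set_option linter.unusedSectionVars false

namespace Cfsg.Agent.Lib.FpfPP

open Subgroup

universe u

variable {Γ : Type u} [Group Γ] [Finite Γ] {p : ℕ} [Fact p.Prime] {M : Subgroup Γ}

/-- The `p'`-part of `M` (for `M` nilpotent). -/
def opc (p : ℕ) (M : Subgroup Γ) : Subgroup Γ := closure {g | g ∈ M ∧ ¬ p ∣ orderOf g}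

/-- The `p`-part of `M` (for `M` nilpotent). -/
def opp (p : ℕ) (M : Subgroup Γ) : Subgroup Γ := closure {g | g ∈ M ∧ ∃ k : ℕ, orderOf g = p ^ k}

namespace PcAux

theorem ord_conj (g x : Γ) : orderOf (g * x * g⁻¹) = orderOf x :=
  (MulAut.conj g).orderOf_eq x

/-- The splitting of a finite nilpotent group at a prime. -/
theorem parts (X : Type u) [Group X] [Finite X] [hX : Group.IsNilpotent X] (p : ℕ) [hp : Fact p.Prime] :
    ∃ P K : Subgroup X, IsPGroup p P ∧ ¬ p ∣ Nat.card K ∧ (∀ g : X, (∃ k : ℕ, orderOf g = p ^ k) ↔ g ∈ P) ∧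
      (∀ g : X, ¬ p ∣ orderOf g ↔ g ∈ K) ∧ (∀ g : X, ∃ u ∈ P, ∃ y ∈ K, g = u * y) := by
  obtain ⟨S⟩ : Nonempty (Sylow p X) := inferInstance
  have hSn : (S : Subgroup X).Normal := inferInstance
  have hcop : (Nat.card (S : Subgroup X)).Coprime (S : Subgroup X).index := S.card_coprime_index
  obtain ⟨K, hK⟩ := Subgroup.exists_right_complement'_of_coprime hcop
  have hKc : Nat.card K = (S : Subgroup X).index := by
    have h1 := hK.card_mul_card
    have h2 := (S : Subgroup X).card_mul_index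
    have hpos : 0 < Nat.card (S : Subgroup X) := Nat.card_pos
    exact Nat.eq_of_mul_eq_mul_left hpos (h1.trans h2.symm)
  have hKp : ¬ p ∣ Nat.card K := by rw [hKc]; exact S.not_dvd_index
  have hdisj : Disjoint (S : Subgroup X) K := hK.disjoint
  have hdec : ∀ g : X, ∃ u ∈ (S : Subgroup X), ∃ y ∈ K, g = u * y := by
    intro g
    obtain ⟨⟨s, t⟩, e⟩ := hK.2 g
    exact ⟨s, s.2, t, t.2, e.symm⟩
  have hKord : ∀ g ∈ K, ¬ p ∣ orderOf g := by
    intro g hg hd
    apply hKp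
    have h1 : orderOf g ∣ Nat.card K := by
      rw [← Subgroup.orderOf_mk g hg]
      exact orderOf_dvd_natCard _
    exact hd.trans h1
  have hPord : ∀ g ∈ (S : Subgroup X), ∃ k : ℕ, orderOf g = p ^ k := by
    intro g hg
    obtain ⟨j, hj⟩ := S.isPGroup' ⟨g, hg⟩
    have h1 : g ^ p ^ j = 1 := congrArg Subtype.val hj
    obtain ⟨k, -, hk⟩ := (Nat.dvd_prime_pow hp.out).1 (orderOf_dvd_of_pow_eq_one h1)
    exact ⟨k, hk⟩
  refine ⟨S, K, S.isPGroup', hKp, ?_, ?_, hdec⟩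
  · intro g
    refine ⟨?_, hPord g⟩
    rintro ⟨k, hk⟩
    have hz : IsPGroup p (zpowers g) := IsPGroup.of_card (n := k) (by rw [Nat.card_zpowers, hk])
    obtain ⟨R, hR⟩ := hz.exists_le_sylow
    have hu := Sylow.unique_of_normal S hSn
    have hRS : R = S := Subsingleton.elim _ _
    rw [← hRS]
    exact hR (mem_zpowers g)
  · intro g
    refine ⟨?_, hKord g⟩
    intro hg
    obtain ⟨u, hu, y, hy, rfl⟩ := hdec g
    obtain ⟨k, hk⟩ := hPord u hu
    have hcopr : (orderOf u).Coprime (orderOf y) := by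
      rw [hk]
      exact Nat.Coprime.pow_left _ ((Nat.Prime.coprime_iff_not_dvd hp.out).mpr (hKord y hy))
    have hc : Commute u y := Cfsg.Agent.Lib.OddLocal.CN.commute_of_coprime hcopr
    set n := orderOf (u * y) with hn
    have h1 : u ^ n * y ^ n = 1 := by
      rw [← hc.mul_pow, hn]
      exact pow_orderOf_eq_one _
    have h2 : u ^ n = (y ^ n)⁻¹ := eq_inv_of_mul_eq_one_left h1
    have h3 : u ^ n ∈ (S : Subgroup X) ⊓ K :=
      ⟨(S : Subgroup X).pow_mem hu n, by rw [h2]; exact K.inv_mem (K.pow_mem hy n)⟩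
    rw [hdisj.eq_bot, mem_bot] at h3
    have h4 : orderOf u ∣ n := orderOf_dvd_of_pow_eq_one h3
    have h5 : orderOf u = 1 := by
      have hcn : (p ^ k).Coprime n :=
        Nat.Coprime.pow_left _ ((Nat.Prime.coprime_iff_not_dvd hp.out).mpr hg)
      rw [← hk] at hcn
      exact Nat.Coprime.eq_one_of_dvd hcn h4
    rw [orderOf_eq_one_iff] at h5
    rw [h5, one_mul]
    exact hy

variable (M)

theorem exists_forms (hM : Group.IsNilpotent M) (p : ℕ) [Fact p.Prime] :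
    ∃ P K : Subgroup M, IsPGroup p P ∧ ¬ p ∣ Nat.card K ∧ opp p M = P.map M.subtype ∧
      opc p M = K.map M.subtype ∧ (∀ g : M, ∃ u ∈ P, ∃ y ∈ K, g = u * y) := by
  have := hM
  obtain ⟨P, K, hP, hK, hP', hK', hdec⟩ := parts (M : Type u) p
  refine ⟨P, K, hP, hK, ?_, ?_, hdec⟩
  · apply le_antisymm
    · rw [opp, closure_le]
      rintro g ⟨hg, k, hk⟩
      refine ⟨⟨g, hg⟩, (hP' _).1 ⟨k, by rw [Subgroup.orderOf_mk]; exact hk⟩, rfl⟩
    · rintro _ ⟨x, hx, rfl⟩
      refine subset_closure ⟨x.2, ?_⟩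
      obtain ⟨k, hk⟩ := (hP' x).2 hx
      exact ⟨k, by simpa using hk⟩
  · apply le_antisymm
    · rw [opc, closure_le]
      rintro g ⟨hg, hk⟩
      refine ⟨⟨g, hg⟩, (hK' _).1 (by rw [Subgroup.orderOf_mk]; exact hk), rfl⟩
    · rintro _ ⟨x, hx, rfl⟩
      refine subset_closure ⟨x.2, ?_⟩
      have := (hK' x).2 hx
      simpa using this

variable {M}

/-- Conjugation preserves a closure of a conjugation-stable set. -/
theorem mem_normalizer_closure {S : Set Γ} {g : Γ}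
    (h1 : ∀ x ∈ S, g * x * g⁻¹ ∈ S) (h2 : ∀ x ∈ S, g⁻¹ * x * g ∈ S) :
    g ∈ normalizer (closure S : Set Γ) := by
  rw [mem_normalizer_iff]
  have key : ∀ (a : Γ), (∀ x ∈ S, a * x * a⁻¹ ∈ S) → ∀ h ∈ closure S, a * h * a⁻¹ ∈ closure S := by
    intro a ha h hh
    induction hh using closure_induction with
    | mem x hx => exact subset_closure (ha x hx)
    | one => simp
    | mul x y _ _ hx hy =>
      have e : a * (x * y) * a⁻¹ = (a * x * a⁻¹) * (a * y * a⁻¹) := by group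
      rw [e]
      exact mul_mem hx hy
    | inv x _ hx =>
      have e : a * x⁻¹ * a⁻¹ = (a * x * a⁻¹)⁻¹ := by group
      rw [e]
      exact inv_mem hx
  intro h
  refine ⟨key g h1 h, fun hh => ?_⟩
  have := key g⁻¹ (by simpa using h2) _ hh
  have e : g⁻¹ * (g * h * g⁻¹) * g⁻¹⁻¹ = h := by group
  rwa [e] at this

end PcAux

theorem opc_le : opc p M ≤ M := by
  rw [opc, closure_le]
  exact fun g hg => hg.1

theorem opp_le : opp p M ≤ M := by
  rw [opp, closure_le]
  exact fun g hg => hg.1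

theorem not_dvd_opc (hM : Group.IsNilpotent M) : ¬ p ∣ Nat.card (opc p M) := by
  obtain ⟨P, K, -, hK, -, h, -⟩ := PcAux.exists_forms M hM p
  rw [h, Subgroup.card_subtype]
  exact hK

theorem isPGroup_opp (hM : Group.IsNilpotent M) : IsPGroup p (opp p M) := by
  obtain ⟨P, K, hP, -, h, -, -⟩ := PcAux.exists_forms M hM p
  rw [h]
  exact hP.map _

theorem le_opc {D : Subgroup Γ} (hDM : D ≤ M) (hD : ¬ p ∣ Nat.card D) : D ≤ opc p M := by
  intro d hd
  refine subset_closure ⟨hDM hd, fun hdvd => hD ?_⟩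
  have h1 : orderOf d ∣ Nat.card D := by
    rw [← Subgroup.orderOf_mk d hd]
    exact orderOf_dvd_natCard _
  exact hdvd.trans h1

theorem le_opp {D : Subgroup Γ} (hDM : D ≤ M) (hD : IsPGroup p D) : D ≤ opp p M := by
  intro d hd
  refine subset_closure ⟨hDM hd, ?_⟩
  obtain ⟨j, hj⟩ := hD ⟨d, hd⟩
  have h1 : d ^ p ^ j = 1 := congrArg Subtype.val hj
  obtain ⟨k, -, hk⟩ := (Nat.dvd_prime_pow (Fact.out : p.Prime)).1 (orderOf_dvd_of_pow_eq_one h1)
  exact ⟨k, hk⟩

/-- Normalizers of `M` normalize the parts. -/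
theorem normalizer_le_opc : normalizer (M : Set Γ) ≤ normalizer (opc p M : Set Γ) := by
  intro g hg
  have hg' := mem_normalizer_iff.mp hg
  apply PcAux.mem_normalizer_closure
  · rintro x ⟨hx, hxo⟩
    exact ⟨(hg' x).1 hx, by simpa [PcAux.ord_conj] using hxo⟩
  · rintro x ⟨hx, hxo⟩
    refine ⟨?_, ?_⟩
    · rw [hg']
      have e : g * (g⁻¹ * x * g) * g⁻¹ = x := by group
      rwa [e]
    · have e : g⁻¹ * x * g = g⁻¹ * x * g⁻¹⁻¹ := by simp
      rw [e, PcAux.ord_conj]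
      exact hxo

theorem normalizer_le_opp : normalizer (M : Set Γ) ≤ normalizer (opp p M : Set Γ) := by
  intro g hg
  have hg' := mem_normalizer_iff.mp hg
  apply PcAux.mem_normalizer_closure
  · rintro x ⟨hx, hxo⟩
    exact ⟨(hg' x).1 hx, by simpa [PcAux.ord_conj] using hxo⟩
  · rintro x ⟨hx, hxo⟩
    refine ⟨?_, ?_⟩
    · rw [hg']
      have e : g * (g⁻¹ * x * g) * g⁻¹ = x := by group
      rwa [e]
    · have e : g⁻¹ * x * g = g⁻¹ * x * g⁻¹⁻¹ := by simp
      rw [e, PcAux.ord_conj]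
      exact hxo

/-- `M = M_p M_{p'}`. -/
theorem exists_mul_opp_opc (hM : Group.IsNilpotent M) {g : Γ} (hg : g ∈ M) :
    ∃ u ∈ opp p M, ∃ y ∈ opc p M, g = u * y := by
  obtain ⟨P, K, -, -, h1, h2, hdec⟩ := PcAux.exists_forms M hM p
  obtain ⟨u, hu, y, hy, e⟩ := hdec ⟨g, hg⟩
  refine ⟨u, ?_, y, ?_, ?_⟩
  · rw [h1]; exact ⟨u, hu, rfl⟩
  · rw [h2]; exact ⟨y, hy, rfl⟩
  · exact congrArg Subtype.val e

/-- The two parts commute. -/
theorem opp_comm_opc (hM : Group.IsNilpotent M) {u y : Γ} (hu : u ∈ opp p M) (hy : y ∈ opc p M) : u * y = y * u := by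
  have hP := isPGroup_opp (p := p) hM
  have hK := not_dvd_opc (p := p) hM
  have h1 : ∃ k : ℕ, orderOf u = p ^ k := by
    obtain ⟨j, hj⟩ := hP ⟨u, hu⟩
    have h1 : u ^ p ^ j = 1 := congrArg Subtype.val hj
    obtain ⟨k, -, hk⟩ := (Nat.dvd_prime_pow (Fact.out : p.Prime)).1 (orderOf_dvd_of_pow_eq_one h1)
    exact ⟨k, hk⟩
  obtain ⟨k, hk⟩ := h1
  have h2 : ¬ p ∣ orderOf y := by
    intro hd
    apply hK
    have h1 : orderOf y ∣ Nat.card (opc p M) := by
      rw [← Subgroup.orderOf_mk y hy]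
      exact orderOf_dvd_natCard _
    exact hd.trans h1
  have hc : (orderOf u).Coprime (orderOf y) := by
    rw [hk]
    exact Nat.Coprime.pow_left _ ((Nat.Prime.coprime_iff_not_dvd (Fact.out : p.Prime)).mpr h2)
  exact Cfsg.Agent.Lib.OddLocal.CN.commute_of_coprime' hM (opp_le hu) (opc_le hy) hc

/-- A `p`-subgroup and a `p'`-subgroup of a nilpotent subgroup commute. -/
theorem comm_of_nilp (hM : Group.IsNilpotent M) {R S : Subgroup Γ} (hR : R ≤ M) (hS : S ≤ M)
    (hRp : IsPGroup p R) (hSp : ¬ p ∣ Nat.card S) {u y : Γ} (hu : u ∈ R) (hy : y ∈ S) : u * y = y * u :=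
  opp_comm_opc hM (le_opp hR hRp hu) (le_opc hS hSp hy)

/-- A subgroup of a nilpotent subgroup is nilpotent. -/
theorem nilp_of_le (hM : Group.IsNilpotent M) {D : Subgroup Γ} (hDM : D ≤ M) : Group.IsNilpotent D := by
  have := hM
  exact Group.isNilpotent_congr (Subgroup.subgroupOfEquivOfLe hDM) |>.mp inferInstance

end Cfsg.Agent.Lib.FpfPP
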